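import Mathlib
import Cfsg.Agent.ExtraFpf.Reduce

/-!
An operator of prime order `ℓ` without fixed points on a coprime module for a class two group: it fixes
the centre, and the part of the group it moves is extraspecial, so that `ℓ = 2 ^ n + 1`.
-/

set_option autoImplicit false

namespace CfsgLib.FpfPQ

open scoped commutatorElement

variable {r : ℕ} [Fact r.Prime] {U : Type*} [AddCommGroup U] [Module (ZMod r) U]
  {Q : Type*} [Group Q] [Finite Q] {s : ℕ} [Fact s.Prime] {ℓ : ℕ}

/-- An element of `s`-power order with an `ℓ`-th power in a subgroup lies in it. -/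
theorem mem_of_pow_prime_mem (hℓ : ℓ.Prime) (hsℓ : s ≠ ℓ) (hQ : IsPGroup s Q) {H : Subgroup Q} {a : Q}
    (h : a ^ ℓ ∈ H) : a ∈ H := by
  obtain ⟨k, hk⟩ := hQ a
  obtain ⟨j, hj⟩ := exists_pow_eq_self_of_coprime (x := a) (n := ℓ)
    ((((Nat.coprime_primes Fact.out hℓ).2 hsℓ).pow_left k).coprime_dvd_left
      (orderOf_dvd_of_pow_eq_one hk)).symm
  exact hj ▸ pow_mem h j

/-- The operator acts trivially on invariant abelian subgroups. -/
theorem fixed_of_comm (hℓ : ℓ.Prime) (hrs : r ≠ s) (hsℓ : s ≠ ℓ) (hQ : IsPGroup s Q)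
    (ρ : Q →* Module.End (ZMod r) U) (hρ : ∀ a : Q, ρ a = 1 → a = 1) (σ : MulAut Q) (hσ : σ ^ ℓ = 1)
    (X : Module.End (ZMod r) U) (hX0 : ∑ i ∈ Finset.range ℓ, X ^ i = 0)
    (hXρ : ∀ a : Q, X * ρ a = ρ (σ a) * X)
    (T : Subgroup Q) (hT : ∀ a ∈ T, σ a ∈ T) (hTc : ∀ a ∈ T, ∀ b ∈ T, Commute a b) :
    ∀ a ∈ T, σ a = a := by
  let D : Subgroup Q :=
    { carrier := {t | ∃ a ∈ T, a⁻¹ * σ a = t}
      one_mem' := ⟨1, one_mem T, by simp⟩
      mul_mem' := by
        rintro _ _ ⟨a, ha, rfl⟩ ⟨b, hb, rfl⟩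
        refine ⟨a * b, mul_mem ha hb, ?_⟩
        have h : Commute b⁻¹ (a⁻¹ * σ a) := hTc _ (inv_mem hb) _ (mul_mem (inv_mem ha) (hT a ha))
        rw [map_mul, mul_inv_rev]
        calc b⁻¹ * a⁻¹ * (σ a * σ b) = b⁻¹ * (a⁻¹ * σ a) * σ b := by group
          _ = a⁻¹ * σ a * b⁻¹ * σ b := by rw [h.eq]
          _ = _ := by group
      inv_mem' := by
        rintro _ ⟨a, ha, rfl⟩
        refine ⟨a⁻¹, inv_mem ha, ?_⟩
        rw [inv_inv, map_inv, mul_inv_rev, inv_inv]
        exact hTc _ ha _ (inv_mem (hT a ha)) }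
  have hDσ : ∀ t ∈ D, σ t ∈ D := by
    rintro _ ⟨a, ha, rfl⟩
    exact ⟨σ a, hT a ha, by simp⟩
  have hmap : D.map σ.toMonoidHom = D := Subgroup.eq_of_le_of_card_ge
    (by rintro _ ⟨t, ht, rfl⟩; exact hDσ t ht)
    (by rw [Subgroup.card_map_of_injective (f := σ.toMonoidHom) σ.injective])
  let σD : MulAut D := (σ.subgroupMap D).trans (MulEquiv.subgroupCongr hmap)
  have hσD : ∀ (i : ℕ) (t : D), (((σD ^ i) t : D) : Q) = (σ ^ i) (t : Q) := by
    intro i
    induction i with
    | zero => intro t; rfl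
    | succ i ih => intro t; rw [pow_succ, MulAut.mul_apply, ih, pow_succ, MulAut.mul_apply]; rfl
  intro a ha
  have h := CfsgLib.ExtraFpf.trivial_of_fpf (E := D) hℓ hrs (hQ.to_subgroup D) (ρ.comp D.subtype)
    (σ := σD) (MulEquiv.ext fun t => Subtype.ext (by rw [hσD, hσ]; rfl))
    (fun t ht => by
      obtain ⟨b, hb, hbt⟩ := t.2
      exact Subtype.ext (CfsgLib.ExtraFpf.eq_one_of_stab hℓ hsℓ hQ hσ (a := b) (congrArg Subtype.val ht)
        (by rw [← hbt, mul_inv_cancel_left])))
    X hX0 (fun t => hXρ t) ⟨a⁻¹ * σ a, a, ha, rfl⟩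
  exact (inv_mul_eq_one.1 (hρ _ h)).symm

/-- The norm of `σ` modulo commutators. -/
def normHom (σ : MulAut Q) (ℓ : ℕ) : Q →* Abelianization Q :=
  ∏ i ∈ Finset.range ℓ, Abelianization.of.comp (σ ^ i).toMonoidHom

theorem normHom_apply (σ : MulAut Q) (ℓ : ℕ) (a : Q) :
    normHom σ ℓ a = ∏ i ∈ Finset.range ℓ, Abelianization.of ((σ ^ i) a) := by
  simp [normHom, MonoidHom.finsetProd_apply]

theorem normHom_shift (σ : MulAut Q) (hσ : σ ^ ℓ = 1) (a : Q) : normHom σ ℓ (σ a) = normHom σ ℓ a := by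
  have e1 := Finset.prod_range_succ' (fun i => Abelianization.of ((σ ^ i) a)) ℓ
  rw [Finset.prod_range_succ, hσ, pow_zero] at e1
  rw [normHom_apply, normHom_apply]
  simp only [← MulAut.mul_apply, ← pow_succ]
  exact (mul_right_cancel e1).symm

/-- The moved part of the group is extraspecial, and small. -/
theorem exceptional [Finite U] (hℓ : ℓ.Prime) (hrs : r ≠ s) (hrℓ : r ≠ ℓ) (hsℓ : s ≠ ℓ) (hQ : IsPGroup s Q)
    (ρ : Q →* Module.End (ZMod r) U) (hρ : ∀ a : Q, ρ a = 1 → a = 1) (σ : MulAut Q) (hσ : σ ^ ℓ = 1)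
    (X : Module.End (ZMod r) U) (hXr : X ^ ℓ = 1) (hX0 : ∑ i ∈ Finset.range ℓ, X ^ i = 0)
    (hXρ : ∀ a : Q, X * ρ a = ρ (σ a) * X)
    (hcomm : ∀ a b : Q, ⁅a, b⁆ ∈ Subgroup.center Q) (hpow : ∀ a : Q, a ^ s ∈ Subgroup.center Q)
    (hcard : Nat.card (commutator Q) = s) (hmove : ∃ a : Q, σ a ≠ a) :
    (normHom σ ℓ).ker ⊓ Subgroup.center Q ≤ commutator Q ∧
      s = 2 ∧ ∃ n : ℕ, ℓ = 2 ^ n + 1 ∧ Nat.card (normHom σ ℓ).ker = 2 ^ (2 * n + 1) := by
  have hsp : s.Prime := Fact.out
  have hCle : commutator Q ≤ Subgroup.center Q := by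
    rw [commutator_def, Subgroup.commutator_le]
    exact fun a _ b _ => hcomm a b
  have hσZ : ∀ z ∈ Subgroup.center Q, σ z = z :=
    fixed_of_comm hℓ hrs hsℓ hQ ρ hρ σ hσ X hX0 hXρ _
      (fun z hz => Subgroup.mem_center_iff.2 fun b => by
        obtain ⟨b, rfl⟩ := σ.surjective b
        rw [← map_mul, ← map_mul, Subgroup.mem_center_iff.1 hz b])
      (fun a _ b hb => Subgroup.mem_center_iff.1 hb a)
  have hσC : ∀ (i : ℕ), ∀ z ∈ Subgroup.center Q, (σ ^ i) z = z := fun i z hz =>
    CfsgLib.ExtraFpf.pow_apply_fixed (hσZ z hz) i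
  set E := (normHom σ ℓ).ker with hEdef
  have hCE : commutator Q ≤ E := Abelianization.commutator_subset_ker _
  have hfix : ∀ a ∈ E, σ a = a → a ∈ commutator Q := by
    intro a ha h
    refine mem_of_pow_prime_mem hℓ hsℓ hQ ?_
    rw [← Abelianization.ker_of, MonoidHom.mem_ker, map_pow]
    rw [hEdef, MonoidHom.mem_ker, normHom_apply] at ha
    simp only [CfsgLib.ExtraFpf.pow_apply_fixed h, Finset.prod_const, Finset.card_range] at ha
    exact ha
  have hdiff : ∀ a : Q, a⁻¹ * σ a ∈ E := fun a => by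
    rw [hEdef, MonoidHom.mem_ker, map_mul, map_inv, normHom_shift σ hσ, inv_mul_cancel]
  have hcentral : ∀ w ∈ E, (∀ e ∈ E, w * e = e * w) → w ∈ Subgroup.center Q := by
    intro w hw hwE
    refine Subgroup.mem_center_iff.2 fun a => ?_
    obtain ⟨z, hz⟩ := QuotientGroup.mk_surjective (normHom σ ℓ a)
    replace hz : Abelianization.of z = normHom σ ℓ a := hz
    have hzi : ∀ i : ℕ, Abelianization.of ((σ ^ i) z) = Abelianization.of z := by
      intro i
      induction i with
      | zero => rfl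
      | succ i ih =>
        have h1 : Abelianization.of (σ z) = Abelianization.of z := by
          have h2 : Abelianization.of (σ z) = Abelianization.map σ.toMonoidHom (Abelianization.of z) := rfl
          rw [h2, hz, normHom_apply, map_prod]
          have h3 := normHom_shift σ hσ a
          rw [normHom_apply, normHom_apply] at h3
          refine Eq.trans (Finset.prod_congr rfl fun j _ => ?_) h3
          rw [Abelianization.map_of]
          show Abelianization.of (σ ((σ ^ j) a)) = _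
          rw [← MulAut.mul_apply, ← MulAut.mul_apply, ← pow_succ', pow_succ]
        rw [pow_succ, MulAut.mul_apply]
        have h4 : ∀ x y : Q, Abelianization.of x = Abelianization.of y →
            Abelianization.of ((σ ^ i) x) = Abelianization.of ((σ ^ i) y) := fun x y hxy => by
          have := congrArg (Abelianization.map (σ ^ i).toMonoidHom) hxy
          rwa [Abelianization.map_of, Abelianization.map_of] at this
        exact (h4 _ _ h1).trans ih
    have heE : a ^ ℓ * z⁻¹ ∈ E := by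
      rw [hEdef, MonoidHom.mem_ker, map_mul, map_inv, map_pow, mul_inv_eq_one, normHom_apply σ ℓ z]
      simp only [hzi, Finset.prod_const, Finset.card_range, hz]
    letI : CommGroup (Subgroup.center Q) :=
      { (inferInstance : Group (Subgroup.center Q)) with
        mul_comm := fun u v => Subtype.ext (Subgroup.mem_center_iff.1 v.2 u) }
    let φ : Q →* Subgroup.center Q :=
      { toFun := fun u => ⟨⁅u, z⁆, hcomm u z⟩
        map_one' := Subtype.ext (commutatorElement_one_left z)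
        map_mul' := fun u v => Subtype.ext (CfsgLib.PCore.commutatorElement_mul_left_of_class_two hcomm u v z) }
    have hwz : ⁅w, z⁆ = 1 := by
      have h := congrArg (Abelianization.lift φ) (MonoidHom.mem_ker.1 hw : normHom σ ℓ w = 1)
      rw [map_one, normHom_apply, map_prod] at h
      simp only [Abelianization.lift_apply_of] at h
      have hall : ∀ i : ℕ, φ ((σ ^ i) w) = φ w := by
        intro i
        refine Subtype.ext ?_
        show ⁅(σ ^ i) w, z⁆ = ⁅w, z⁆
        obtain ⟨c, hc, hcz⟩ : ∃ c ∈ Subgroup.center Q, (σ ^ i) z = z * c :=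
          ⟨z⁻¹ * (σ ^ i) z, hCle (by
            rw [← Abelianization.ker_of, MonoidHom.mem_ker, map_mul, map_inv, hzi, inv_mul_cancel]), by group⟩
        calc ⁅(σ ^ i) w, z⁆ = ⁅(σ ^ i) w, (σ ^ i) z⁆ := by
              rw [hcz, commutatorElement_def, commutatorElement_def, mul_inv_rev]
              have h1 := Subgroup.mem_center_iff.1 hc
              calc (σ ^ i) w * z * ((σ ^ i) w)⁻¹ * z⁻¹
                  = (σ ^ i) w * z * ((σ ^ i) w)⁻¹ * c * c⁻¹ * z⁻¹ := by group
                _ = _ := by rw [mul_assoc ((σ ^ i) w * z) _ c, h1]; group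
          _ = (σ ^ i) ⁅w, z⁆ := (map_commutatorElement _ _ _).symm
          _ = ⁅w, z⁆ := hσC i _ (hcomm w z)
      simp only [hall, Finset.prod_const, Finset.card_range] at h
      have h' : ⁅w, z⁆ ^ ℓ = 1 := congrArg Subtype.val h
      exact Subgroup.mem_bot.1 (mem_of_pow_prime_mem hℓ hsℓ hQ (H := ⊥) (Subgroup.mem_bot.2 h'))
    have hwa : ⁅w, a⁆ = 1 := by
      refine Subgroup.mem_bot.1 (mem_of_pow_prime_mem hℓ hsℓ hQ (H := ⊥) (Subgroup.mem_bot.2 ?_))
      have hpr : ∀ k : ℕ, ⁅w, a ^ k⁆ = ⁅w, a⁆ ^ k := by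
        intro k
        induction k with
        | zero => simp
        | succ k ih =>
          rw [pow_succ, CfsgLib.PCore.commutatorElement_mul_right_of_class_two hcomm, ih, pow_succ]
      rw [← hpr, show a ^ ℓ = a ^ ℓ * z⁻¹ * z by group,
        CfsgLib.PCore.commutatorElement_mul_right_of_class_two hcomm, hwz, mul_one,
        commutatorElement_eq_one_iff_mul_comm.2 (hwE _ heE)]
    exact (commutatorElement_eq_one_iff_mul_comm.1 hwa).symm
  have hEC : E ⊓ Subgroup.center Q ≤ commutator Q := fun w hw => hfix w hw.1 (hσZ w hw.2)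
  refine ⟨hEC, ?_⟩
  obtain ⟨a, haE, b, hbE, hab⟩ : ∃ a ∈ E, ∃ b ∈ E, a * b ≠ b * a := by
    by_contra hcon
    push Not at hcon
    obtain ⟨a, ha⟩ := hmove
    refine ha ?_
    have hc := hcentral _ (hdiff a) fun e he => hcon _ (hdiff a) _ he
    have h1 := CfsgLib.ExtraFpf.eq_one_of_stab hℓ hsℓ hQ hσ (hσZ _ hc) (a := a) (mul_inv_cancel_left a (σ a)).symm
    exact (inv_mul_eq_one.1 h1).symm
  have hcE : ∀ w : E, w ∈ Subgroup.center E ↔ (w : Q) ∈ commutator Q := by
    intro w
    constructor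
    · intro hw
      exact hEC ⟨w.2, hcentral _ w.2 fun e he =>
        (congrArg Subtype.val (Subgroup.mem_center_iff.1 hw ⟨e, he⟩)).symm⟩
    · intro hw
      exact Subgroup.mem_center_iff.2 fun e => Subtype.ext (Subgroup.mem_center_iff.1 (hCle hw) e)
  have hcEmap : (Subgroup.center E).map E.subtype = commutator Q := by
    ext w
    constructor
    · rintro ⟨v, hv, rfl⟩; exact (hcE v).1 hv
    · intro hw; exact ⟨⟨w, hCE hw⟩, (hcE _).2 hw, rfl⟩
  have hcardC : Nat.card (Subgroup.center E) = s := by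
    rw [← hcard, ← hcEmap, Subgroup.card_map_of_injective E.subtype_injective]
  have hcommE : commutator E = Subgroup.center E := by
    refine Subgroup.eq_of_le_of_card_ge ?_ ?_
    · rw [commutator_def, Subgroup.commutator_le]
      exact fun u _ v _ => (hcE _).2 (by
        rw [show ((⁅u, v⁆ : E) : Q) = ⁅(u : Q), (v : Q)⁆ from map_commutatorElement E.subtype u v, commutator_def]
        exact Subgroup.commutator_mem_commutator (Subgroup.mem_top _) (Subgroup.mem_top _))
    · rw [hcardC]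
      haveI : Nontrivial (commutator E) := by
        rw [Subgroup.nontrivial_iff_ne_bot]
        intro h
        refine hab ?_
        have h1 : ⁅(⟨a, haE⟩ : E), ⟨b, hbE⟩⁆ ∈ commutator E := by
          rw [commutator_def]
          exact Subgroup.commutator_mem_commutator (Subgroup.mem_top _) (Subgroup.mem_top _)
        rw [h, Subgroup.mem_bot] at h1
        exact congrArg Subtype.val (commutatorElement_eq_one_iff_mul_comm.1 h1)
      obtain ⟨k, hk0, hk⟩ := ((hQ.to_subgroup E).to_subgroup (commutator E)).nontrivial_iff_card.1 inferInstance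
      rw [hk]
      exact Nat.le_self_pow (by omega) s
  have hex : Cfsg.IsExtraspecial s E := by
    refine ⟨⟨hQ.to_subgroup E, le_antisymm ?_ ?_, hcommE⟩, hcardC⟩
    · refine CfsgLib.CoprimeAction.frattini_le_of_elementary (p := s) _ hcommE.le fun u => ?_
      exact (hcE _).2 (hEC ⟨(u ^ s).2, by rw [SubgroupClass.coe_pow]; exact hpow _⟩)
    · rw [← hcommE]
      exact CfsgLib.CoprimeAction.commutator_le_frattini' (hQ.to_subgroup E)
  have hEmap : E.map σ.toMonoidHom = E := Subgroup.eq_of_le_of_card_ge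
    (by
      rintro _ ⟨t, ht, rfl⟩
      show σ t ∈ E
      rw [hEdef, MonoidHom.mem_ker, normHom_shift σ hσ]; exact ht)
    (by rw [Subgroup.card_map_of_injective (f := σ.toMonoidHom) σ.injective])
  let σE : MulAut E := (σ.subgroupMap E).trans (MulEquiv.subgroupCongr hEmap)
  have hσEi : ∀ (i : ℕ) (t : E), (((σE ^ i) t : E) : Q) = (σ ^ i) (t : Q) := by
    intro i
    induction i with
    | zero => intro t; rfl
    | succ i ih => intro t; rw [pow_succ, MulAut.mul_apply, ih, pow_succ, MulAut.mul_apply]; rfl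
  obtain ⟨h2, n, hn, hcE2⟩ := CfsgLib.ExtraFpf.eq_two_of_fpf (V := U) (E := E) hℓ hrs hrℓ hsℓ hex
    (ρ.comp E.subtype)
    (by
      have h : ⁅a, b⁆ ∈ commutator Q :=
        Subgroup.commutator_mem_commutator (Subgroup.mem_top _) (Subgroup.mem_top _)
      exact ⟨⟨⁅a, b⁆, hCE h⟩, (hcE _).2 h, fun h => hab (commutatorElement_eq_one_iff_mul_comm.1 (hρ _ h))⟩)
    σE (MulEquiv.ext fun t => Subtype.ext (by rw [hσEi, hσ]; rfl))
    (fun w hw => Subtype.ext (hσZ _ (hCle ((hcE w).1 hw))))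
    (fun u hu => by
      have h1 := CfsgLib.ExtraFpf.eq_one_of_stab hℓ hsℓ hQ hσ (hσZ _ (hCle ((hcE _).1 hu))) (a := (u : Q))
        (mul_inv_cancel_left (u : Q) (σ u)).symm
      exact (hcE _).2 (hfix _ u.2 (inv_mul_eq_one.1 h1).symm))
    X hXr hX0 (fun u => hXρ u)
  exact ⟨h2, n, hn, hcE2⟩

end CfsgLib.FpfPQ
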