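import Mathlib
import Cfsg.Agent.FrobModule.Main

/-!
Two facts about a non-degenerate alternating form on a finite module: the moved part of a fixed-point-free
Frobenius complement is big, and what commutes with an irreducible operator of order `2 ^ n + 1` is trivial.
-/

set_option autoImplicit false
set_option linter.style.haveILetI false

namespace CfsgLib.FpfPQ

/-- In an abelian group, a multiple coprime to the exponent vanishes only at zero. -/
theorem nsmul_eq_zero_of_coprime {M : Type*} [AddCommGroup M] {m k : ℕ} {x : M} (hmk : m.Coprime k)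
    (hm : m • x = 0) (hk : k • x = 0) : x = 0 :=
  AddMonoid.addOrderOf_eq_one_iff.1 (Nat.eq_one_of_dvd_coprimes hmk (addOrderOf_dvd_of_nsmul_eq_zero hm)
    (addOrderOf_dvd_of_nsmul_eq_zero hk))

theorem le_moved {s : ℕ} [Fact s.Prime] {W Z G : Type*} [AddCommGroup W] [Module (ZMod s) W] [Finite W]
    [AddCommGroup Z] [Group G] [Finite G] (τ : Representation (ZMod s) G W) (β : W →+ W →+ Z)
    (halt : ∀ w, β w w = 0) (hnd : ∀ w, (∀ w', β w w' = 0) → w = 0)
    (hinv : ∀ g v w, β (τ g v) (τ g w) = β v w)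
    (N : Subgroup G) [N.Normal] (hN : ∀ a ∈ N, ∀ b ∈ N, a * b = b * a) (hsN : ¬ s ∣ Nat.card N)
    {ℓ : ℕ} (hℓ : ℓ.Prime) (hsℓ : s ≠ ℓ) {c : G} (hc : c ^ ℓ = 1)
    (hfpf : ∀ z ∈ N, c * z * c⁻¹ = z → z = 1) :
    (∀ z ∈ N, τ z = 1) ∨
      s ^ (2 * (ℓ - 1)) ≤ Nat.card {w : W // ∑ i ∈ Finset.range ℓ, τ (c ^ i) w = 0} := by
  classical
  have hsp : s.Prime := Fact.out
  haveI : Fintype N := Fintype.ofFinite N
  rcases eq_or_ne c 1 with rfl | hc1
  · exact Or.inl fun z hz => by rw [hfpf z hz (by simp), map_one]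
  haveI := Fact.mk hℓ
  have hord : orderOf c = ℓ := orderOf_eq_prime hc hc1
  set Hc := Subgroup.zpowers c with hHc
  haveI : Fintype Hc := Fintype.ofFinite Hc
  have hcardH : Fintype.card Hc = ℓ := by rw [← Nat.card_eq_fintype_card, Nat.card_zpowers, hord]
  haveI : Module.Finite (ZMod s) W := Module.Finite.of_finite
  set SN : Module.End (ZMod s) W := ∑ z : N, τ (z : G) with hSN
  have hmm : ∀ (a b : G) (w : W), τ (a * b) w = τ a (τ b w) := fun a b w => by rw [map_mul]; rfl
  have hNc : ∀ (g : G) (w : W), τ g (SN w) = SN (τ g w) := by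
    intro g w
    simp only [hSN, LinearMap.sum_apply, map_sum]
    refine Fintype.sum_equiv (MulAut.conjNormal g).toEquiv _ _ fun z => ?_
    show τ g (τ (z : G) w) = τ (g * (z : G) * g⁻¹) (τ g w)
    rw [← hmm, ← hmm, inv_mul_cancel_right]
  have habs : ∀ z : N, ∀ w, SN (τ (z : G) w) = SN w := by
    intro z w
    simp only [hSN, LinearMap.sum_apply]
    refine Fintype.sum_equiv (Equiv.mulRight z) _ _ fun z' => ?_
    show τ (z' : G) (τ (z : G) w) = τ ((z' : G) * z) w
    rw [← hmm]
  set W1 := LinearMap.ker SN with hW1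
  have hW1inv : ∀ g : G, ∀ w ∈ W1, τ g w ∈ W1 := fun g w hw => by
    rw [hW1, LinearMap.mem_ker] at hw ⊢
    rw [← hNc, hw, map_zero]
  by_cases hbot : W1 = ⊥
  · refine Or.inl fun z hz => LinearMap.ext fun w => ?_
    have h : τ z w - w ∈ W1 := by rw [hW1, LinearMap.mem_ker, map_sub, habs ⟨z, hz⟩, sub_self]
    rw [hbot, Submodule.mem_bot, sub_eq_zero] at h
    exact h
  right
  let τ1 : Representation (ZMod s) G W1 :=
    { toFun := fun g => (τ g).restrict (hW1inv g)
      map_one' := LinearMap.ext fun w => Subtype.ext (by simp [LinearMap.restrict_apply])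
      map_mul' := fun g h => LinearMap.ext fun w => Subtype.ext (by simp [LinearMap.restrict_apply]) }
  have hτ1 : ∀ g (w : W1), (τ1 g w : W) = τ g w := fun g w => rfl
  have hcard0 : (Nat.card N : ZMod s) ≠ 0 := fun h => hsN ((ZMod.natCast_eq_zero_iff _ _).1 h)
  have hsum : ∑ z : N, τ1 (z : G) = 0 := LinearMap.ext fun w => Subtype.ext (by
    rw [LinearMap.sum_apply, Submodule.coe_sum]
    simp only [hτ1]
    have h : SN (w : W) = 0 := LinearMap.mem_ker.1 w.2
    rw [hSN, LinearMap.sum_apply] at h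
    exact h)
  obtain ⟨Wg, -, hgen, huniq⟩ := CfsgLib.FrobModule.isFreeOn_top_of_abelian τ1 N Hc hcard0 hsum
    (fun z hz w hw => by rw [← map_mul, ← map_mul, hN z hz w hw])
    (fun h hh hh1 z hz hfix => hfpf z hz (by
      obtain ⟨k, hk⟩ : c ∈ Subgroup.zpowers h := by
        have h1 : Subgroup.zpowers h = Hc := Subgroup.eq_of_le_of_card_ge (Subgroup.zpowers_le.2 hh) (by
          rw [hHc, Nat.card_zpowers, Nat.card_zpowers, hord]
          have h2 : orderOf h ∣ ℓ := by
            rw [← hord, ← Nat.card_zpowers c]; exact Subgroup.orderOf_dvd_natCard _ hh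
          exact ((hℓ.eq_one_or_self_of_dvd _ h2).resolve_left fun e => hh1 (orderOf_eq_one_iff.1 e)).ge)
        exact h1 ▸ Subgroup.mem_zpowers c
      subst hk
      exact mul_inv_eq_iff_eq_mul.2 ((mul_inv_eq_iff_eq_mul.1 hfix : h * z = z * h) |> fun e =>
        (Commute.zpow_left e k).eq)))
  have hτh : ∀ (h g : Hc) (w : W1), (τ1.comp Hc.subtype) h ((τ1.comp Hc.subtype) g w) =
      (τ1.comp Hc.subtype) (h * g) w := fun h g w => by rw [map_mul]; rfl
  let F : W1 → W1 := fun w => ∑ h : Hc, (τ1.comp Hc.subtype) h w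
  have hFfix : ∀ (g : Hc) (w : W1), (τ1.comp Hc.subtype) g (F w) = F w := by
    intro g w
    simp only [F, map_sum]
    refine Fintype.sum_equiv (Equiv.mulLeft g) _ _ fun h => ?_
    exact hτh g h w
  have hFinv : ∀ (g : Hc) (w : W1), F ((τ1.comp Hc.subtype) g w) = F w := by
    intro g w
    simp only [F]
    refine Fintype.sum_equiv (Equiv.mulRight g) _ _ fun h => ?_
    exact hτh h g w
  have hadd : ∀ u v, F (u + v) = F u + F v := fun u v => by simp [F, Finset.sum_add_distrib]
  have hrange : ∀ w : W1, ∃ u ∈ Wg, F w = F u := by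
    intro w
    obtain ⟨f, hf, rfl⟩ := hgen w trivial
    refine ⟨∑ h, f h, Submodule.sum_mem _ fun h _ => hf h, ?_⟩
    have hFsum : ∀ g : Hc → W1, F (∑ h, g h) = ∑ h, F (g h) := fun g => by
      simp only [F, map_sum]; exact Finset.sum_comm
    rw [hFsum, hFsum]
    exact Finset.sum_congr rfl fun h _ => hFinv h (f h)
  obtain ⟨w0, hw0, hw00⟩ : ∃ w0 ∈ Wg, w0 ≠ 0 := by
    refine Submodule.exists_mem_ne_zero_of_ne_bot fun h => hbot ?_
    rw [eq_bot_iff]
    intro w hw
    obtain ⟨f, hf, hfw⟩ := hgen ⟨w, hw⟩ trivial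
    rw [h] at hf
    simp only [(Submodule.mem_bot _).1 (hf _), map_zero, Finset.sum_const_zero] at hfw
    exact (Submodule.mem_bot _).2 (congrArg Subtype.val hfw).symm
  have hFinj : ∀ u ∈ Wg, F u = 0 → u = 0 := fun u hu h =>
    congrFun (huniq (fun _ => u) (fun _ => hu) h) (1 : Hc)
  set v : W1 := F w0 with hv
  have hv0 : (v : W) ≠ 0 := fun h => hw00 (hFinj w0 hw0 (Subtype.ext h))
  obtain ⟨w', hw'⟩ : ∃ w', β (v : W) w' ≠ 0 := by
    by_contra h
    exact hv0 (hnd _ fun w' => by by_contra h'; exact h ⟨w', h'⟩)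
  have hs0 : ∀ a b : W, s • β a b = 0 := fun a b => by
    rw [← AddMonoidHom.nsmul_apply, ← map_nsmul, ← Nat.cast_smul_eq_nsmul (ZMod s) s a, ZMod.natCast_self,
      zero_smul, map_zero]
    rfl
  set w1 : W1 := ⟨Fintype.card N • w' - SN w', by
    rw [hW1, LinearMap.mem_ker, map_sub, map_nsmul]
    have : SN (SN w') = Fintype.card N • SN w' := by
      conv_lhs => rw [hSN, LinearMap.sum_apply]
      rw [Finset.sum_congr rfl fun (z : N) _ => (hNc (z : G) w').trans (habs z w'), Finset.sum_const, Finset.card_univ]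
    rw [this, sub_self]⟩ with hw1
  have hvw1 : β (v : W) (w1 : W) ≠ 0 := by
    have hSv : β (v : W) (SN w') = 0 := by
      have h1 : SN (v : W) = 0 := LinearMap.mem_ker.1 v.2
      calc β (v : W) (SN w') = ∑ z : N, β (v : W) (τ (z : G) w') := by
            rw [hSN, LinearMap.sum_apply, map_sum]
        _ = ∑ z : N, β (τ (z : G) (v : W)) w' := by
            refine Fintype.sum_equiv (Equiv.inv N) _ _ fun z => ?_
            show β (v : W) (τ (z : G) w') = β (τ ((z⁻¹ : N) : G) (v : W)) w'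
            rw [← hinv (z : G) (τ ((z⁻¹ : N) : G) (v : W)) w', ← hmm, Subgroup.coe_inv, mul_inv_cancel, map_one]
            rfl
        _ = β (SN (v : W)) w' := by rw [hSN, LinearMap.sum_apply, map_sum, AddMonoidHom.finset_sum_apply]
        _ = 0 := by rw [h1, map_zero]; rfl
    show β (v : W) (Fintype.card N • w' - SN w') ≠ 0
    rw [map_sub, map_nsmul, hSv, sub_zero, ← Nat.card_eq_fintype_card]
    exact fun h => hw' (nsmul_eq_zero_of_coprime ((hsp.coprime_iff_not_dvd.2 hsN)) (hs0 _ _) h)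
  obtain ⟨u2, hu2, hu2F⟩ := hrange w1
  have hvfix : ∀ h : Hc, τ (h : G) (v : W) = v := fun h => congrArg Subtype.val (hFfix h w0)
  have hβF : β (v : W) (F w1 : W1) = ℓ • β (v : W) (w1 : W) := by
    have e : ((F w1 : W1) : W) = ∑ h : Hc, τ (h : G) (w1 : W) := by
      simp only [F]
      rw [Submodule.coe_sum]
      rfl
    rw [e, map_sum, ← hcardH, ← Finset.card_univ, ← Finset.sum_const]
    refine Finset.sum_congr rfl fun h _ => ?_
    conv_lhs => rw [← hvfix h]
    exact hinv _ _ _
  have hpair : β (v : W) (F u2 : W1) ≠ 0 := by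
    rw [← hu2F, hβF]
    exact fun h => hvw1 (nsmul_eq_zero_of_coprime ((Nat.coprime_primes hsp hℓ).2 hsℓ) (hs0 _ _) h)
  -- two independent elements of `Wg`
  have hWg : s ^ 2 ≤ Nat.card Wg := by
    have hinjp : Function.Injective (fun ab : ZMod s × ZMod s =>
        (⟨ab.1 • w0 + ab.2 • u2, add_mem (Wg.smul_mem _ hw0) (Wg.smul_mem _ hu2)⟩ : Wg)) := by
      have key : ∀ a b : ZMod s, a • w0 + b • u2 = 0 → a = 0 ∧ b = 0 := by
        intro a b h
        have hF : ∀ (k : ZMod s) (u : W1), F (k • u) = k • F u := fun k u => by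
          simp [F, Finset.smul_sum]
        have h1 : a • v + b • F u2 = 0 := by
          have := congrArg F h
          rw [hadd, hF, hF, ← hv] at this
          rw [this]; simp [F]
        have h2 := congrArg (fun t : W1 => β (v : W) (t : W)) h1
        simp only [Submodule.coe_add, Submodule.coe_smul, Submodule.coe_zero, map_add, map_zero] at h2
        have hsm : ∀ (k : ZMod s) (x : W), β (v : W) (k • x) = k.val • β (v : W) x := fun k x => by
          conv_lhs => rw [← ZMod.natCast_zmod_val k, Nat.cast_smul_eq_nsmul, map_nsmul]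
        rw [hsm, hsm, halt, nsmul_zero, zero_add] at h2
        have hb : b = 0 := by
          by_contra hb
          refine hpair (nsmul_eq_zero_of_coprime (?_ : Nat.Coprime s b.val) (hs0 _ _) h2)
          refine hsp.coprime_iff_not_dvd.2 fun hd => hb ?_
          rw [← ZMod.natCast_zmod_val b]
          exact (ZMod.natCast_eq_zero_iff _ _).2 hd
        refine ⟨?_, hb⟩
        rw [hb, zero_smul, add_zero] at h
        exact (smul_eq_zero.1 h).resolve_right hw00
      rintro ⟨a, b⟩ ⟨a', b'⟩ h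
      have h' : a • w0 + b • u2 = a' • w0 + b' • u2 := congrArg Subtype.val h
      obtain ⟨e1, e2⟩ := key (a - a') (b - b') (by
        rw [sub_smul, sub_smul, sub_add_sub_comm, h', sub_self])
      rw [sub_eq_zero.1 e1, sub_eq_zero.1 e2]
    have := Nat.card_le_card_of_injective _ hinjp
    rwa [Nat.card_prod, Nat.card_zmod, ← pow_two] at this
  -- the injection
  let I := {h : Hc // h ≠ 1}
  let Φ : (I → Wg) → W1 := fun f => ∑ h : I, ((τ1.comp Hc.subtype) h.1 (f h : W1) - (f h : W1))
  have hpowF : ∀ w : W1, ((F w : W1) : W) = ∑ i ∈ Finset.range ℓ, τ (c ^ i) (w : W) := by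
    intro w
    simp only [F]
    rw [Submodule.coe_sum, ← Fin.sum_univ_eq_sum_range]
    refine (Fintype.sum_equiv ((finCongr hord.symm).trans (finEquivZPowers (isOfFinOrder_of_finite c))) _ _
      fun i => ?_).symm
    rfl
  have hΦmem : ∀ f, ∑ i ∈ Finset.range ℓ, τ (c ^ i) ((Φ f : W1) : W) = 0 := by
    intro f
    rw [← hpowF]
    have : F (Φ f) = 0 := by
      have hF0 : ∀ (g : Hc) (u : W1), F ((τ1.comp Hc.subtype) g u - u) = 0 := fun g u => by
        have := hadd ((τ1.comp Hc.subtype) g u - u) u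
        rw [sub_add_cancel, hFinv] at this
        exact add_eq_right.1 this.symm
      simp only [Φ, F, map_sum]
      rw [Finset.sum_comm]
      exact Finset.sum_eq_zero fun h _ => hF0 _ _
    rw [this]; rfl
  have hΦinj : Function.Injective Φ := by
    intro f g hfg
    let D : Hc → W1 := fun h => if hh : h = 1 then -∑ j : I, ((f j : W1) - (g j : W1)) else (f ⟨h, hh⟩ : W1) - g ⟨h, hh⟩
    have hD : D = 0 := by
      refine huniq D (fun h => ?_) ?_
      · simp only [D]
        split
        · exact neg_mem (Submodule.sum_mem _ fun j _ => sub_mem (f j).2 (g j).2)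
        · exact sub_mem (f _).2 (g _).2
      · rw [Fintype.sum_eq_add_sum_subtype_ne _ (1 : Hc)]
        have h1 : D 1 = -∑ j : I, ((f j : W1) - (g j : W1)) := dif_pos rfl
        rw [h1, map_one, Module.End.one_apply]
        have h2 : ∑ i : {h : Hc // h ≠ 1}, (τ1.comp Hc.subtype) i.1 (D i.1) =
            ∑ i : I, (τ1.comp Hc.subtype) i.1 ((f i : W1) - g i) :=
          Finset.sum_congr rfl fun i _ => by simp only [D]; rw [dif_neg i.2]
        rw [h2, neg_add_eq_sub, ← Finset.sum_sub_distrib, ← sub_eq_zero.2 hfg]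
        simp only [Φ, map_sub, ← Finset.sum_sub_distrib]
        exact Finset.sum_congr rfl fun i _ => by abel
    funext j
    have := congrFun hD j.1
    simp only [D, dif_neg j.2, Pi.zero_apply, sub_eq_zero] at this
    exact Subtype.ext this
  have hI : Fintype.card I = ℓ - 1 := by
    rw [Fintype.card_subtype_compl, hcardH, Fintype.card_subtype_eq]
  calc s ^ (2 * (ℓ - 1)) = (s ^ 2) ^ (ℓ - 1) := pow_mul _ _ _
    _ ≤ Nat.card Wg ^ (ℓ - 1) := Nat.pow_le_pow_left hWg _
    _ = Nat.card (I → Wg) := by rw [Nat.card_fun, Nat.card_eq_fintype_card (α := I), hI]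
    _ ≤ _ := Nat.card_le_card_of_injective (fun f => (⟨(Φ f : W1), hΦmem f⟩ : {w : W // ∑ i ∈ Finset.range ℓ, τ (c ^ i) w = 0}))
        (fun f g h => hΦinj (Subtype.ext (congrArg Subtype.val h :)))

/-- Squaring is additive on commuting endomorphisms in characteristic two. -/
theorem add_pow_two_pow {R : Type*} [Ring R] (h2 : (2 : R) = 0) {a b : R} (h : Commute a b) (n : ℕ) :
    (a + b) ^ 2 ^ n = a ^ 2 ^ n + b ^ 2 ^ n := by
  induction n with
  | zero => simp
  | succ n ih =>
    rw [pow_succ, pow_mul, ih, (h.pow_pow _ _).add_sq, h2, zero_mul, zero_mul, add_zero, ← pow_mul, ← pow_mul]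

/-- An operator of order `2 ^ n + 1` preserving a form commutes with no other form-preserving operator of
coprime order. -/
theorem eq_one_of_commute {W Z : Type*} [AddCommGroup W] [Finite W] [AddCommGroup Z] (β : W →+ W →+ Z)
    (hnd : ∀ w, (∀ w', β w w' = 0) → w = 0) (hexp : ∀ w : W, w + w = 0)
    {ℓ n : ℕ} (hℓ : ℓ.Prime) (hn : ℓ = 2 ^ n + 1) (hW : Nat.card W ≤ 2 ^ (2 * n))
    (γ : AddMonoid.End W) (hγ : γ ^ ℓ = 1) (hfix : ∀ w, γ w = w → w = 0)
    (hγβ : ∀ v w, β (γ v) (γ w) = β v w)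
    (τ : AddMonoid.End W) (hτγ : Commute τ γ) (hτβ : ∀ v w, β (τ v) (τ w) = β v w)
    {m : ℕ} (hm : m.Coprime ℓ) (hτm : τ ^ m = 1) : τ = 1 := by
  classical
  haveI := Fact.mk hℓ
  haveI : Fact (Nat.Prime 2) := ⟨Nat.prime_two⟩
  have hmul : ∀ (f g : AddMonoid.End W) (w : W), (f * g) w = f (g w) := fun f g w => rfl
  have h2 : (2 : AddMonoid.End W) = 0 := by
    rw [← one_add_one_eq_two]
    exact DFunLike.ext _ _ fun w => hexp w
  -- irreducibility
  have hirr : ∀ L : AddSubgroup W, (∀ w ∈ L, γ w ∈ L) → L ≠ ⊥ → L = ⊤ := by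
    intro L hL hL0
    have hγL : ∀ i : ℕ, ∀ w ∈ L, (γ ^ i) w ∈ L := by
      intro i
      induction i with
      | zero => exact fun w hw => hw
      | succ i ih => intro w hw; rw [pow_succ, hmul]; exact ih _ (hL w hw)
    let σ : Equiv.Perm L :=
      ⟨fun w => ⟨γ w, hL _ w.2⟩, fun w => ⟨(γ ^ (ℓ - 1)) w, hγL _ _ w.2⟩,
        fun w => Subtype.ext (by
          show (γ ^ (ℓ - 1)) (γ (w : W)) = w
          rw [← hmul, ← pow_succ, Nat.sub_add_cancel hℓ.one_le, hγ]; rfl),
        fun w => Subtype.ext (by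
          show γ ((γ ^ (ℓ - 1)) (w : W)) = w
          rw [← hmul, ← pow_succ', Nat.sub_add_cancel hℓ.one_le, hγ]; rfl)⟩
    have hσi : ∀ (i : ℕ) (w : L), (((σ ^ i) w : L) : W) = (γ ^ i) (w : W) := by
      intro i
      induction i with
      | zero => intro w; rfl
      | succ i ih => intro w; rw [pow_succ, Equiv.Perm.mul_apply, ih, pow_succ, hmul]; rfl
    haveI : Finite (Subgroup.zpowers σ) := inferInstance
    have hp : IsPGroup ℓ (Subgroup.zpowers σ) := by
      intro g
      refine ⟨1, ?_⟩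
      obtain ⟨k, hk⟩ := Subgroup.mem_zpowers_iff.1 g.2
      have hσ1 : σ ^ ℓ = 1 := Equiv.ext fun w => Subtype.ext (by rw [hσi, hγ]; rfl)
      refine Subtype.ext ?_
      rw [pow_one, SubgroupClass.coe_pow, ← hk, ← zpow_natCast, ← zpow_mul, mul_comm, zpow_mul, zpow_natCast,
        hσ1, one_zpow]
      rfl
    have h1 := hp.card_modEq_card_fixedPoints L
    have hfp : Nat.card (MulAction.fixedPoints (Subgroup.zpowers σ) L) = 1 := by
      rw [Nat.card_eq_one_iff_unique]
      refine ⟨⟨fun x y => ?_⟩, ⟨⟨0, fun g => ?_⟩⟩⟩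
      · have hz : ∀ z : MulAction.fixedPoints (Subgroup.zpowers σ) L, (z : L) = 0 := fun z =>
          Subtype.ext (hfix _ (congrArg Subtype.val (z.2 ⟨σ, Subgroup.mem_zpowers σ⟩)))
        exact Subtype.ext ((hz x).trans (hz y).symm)
      · obtain ⟨k, hk⟩ := (IsOfFinOrder.mem_powers_iff_mem_zpowers (isOfFinOrder_of_finite σ)).2 g.2
        show (g : Equiv.Perm L) 0 = 0
        rw [← show σ ^ k = (g : Equiv.Perm L) from hk]
        exact Subtype.ext (by rw [hσi]; exact map_zero _)
    rw [hfp] at h1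
    have hgrp : IsPGroup 2 (Multiplicative W) := fun w => ⟨1, by
      rw [pow_one, pow_two]; exact hexp (Multiplicative.toAdd w)⟩
    obtain ⟨N, hN⟩ := hgrp.exists_card_eq
    replace hN : Nat.card W = 2 ^ N := (Nat.card_congr Multiplicative.toAdd.symm).trans hN
    obtain ⟨j, hjN, hj⟩ := (Nat.dvd_prime_pow Nat.prime_two).1 (hN ▸ AddSubgroup.card_addSubgroup_dvd_card L)
    have hj0 : j ≠ 0 := by
      rintro rfl
      exact hL0 (AddSubgroup.eq_bot_of_card_eq L hj)
    have hN2 : N ≤ 2 * n := (Nat.pow_le_pow_iff_right (by norm_num)).1 (hN ▸ hW)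
    rw [hj] at h1
    have hd : ℓ ∣ 2 ^ j - 1 := (Nat.modEq_iff_dvd' Nat.one_le_two_pow).1 h1.symm
    have hjn : 2 * n ≤ j := by
      by_contra hlt
      push Not at hlt
      have h2j : 2 ≤ 2 ^ j := Nat.le_self_pow hj0 2
      rcases le_or_gt j n with hle | hgt
      · have h3 : 2 ^ j ≤ 2 ^ n := Nat.pow_le_pow_right (by norm_num) hle
        have := Nat.le_of_dvd (by omega) hd
        omega
      · have hk : 2 ^ (j - n) < 2 ^ n := Nat.pow_lt_pow_right (by norm_num) (by omega)
        have e : 2 ^ j - 1 + (2 ^ (j - n) + 1) = 2 ^ (j - n) * ℓ := by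
          rw [hn, mul_add, mul_one, ← pow_add, Nat.sub_add_cancel hgt.le]
          omega
        have h4 : ℓ ∣ 2 ^ (j - n) + 1 := by
          refine (Nat.dvd_add_right hd).1 ?_
          rw [e]
          exact dvd_mul_left _ _
        have := Nat.le_of_dvd (Nat.succ_pos _) h4
        omega
    refine AddSubgroup.eq_top_of_card_eq L ?_
    rw [hj, hN, show j = N by omega]
  rcases subsingleton_or_nontrivial W with hs | hs
  · exact DFunLike.ext _ _ fun w => Subsingleton.elim _ _
  obtain ⟨v, hv⟩ := exists_ne (0 : W)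
  let F : AddSubgroup (AddMonoid.End W) := AddSubgroup.closure (Set.range fun i : ℕ => γ ^ i)
  have hFγ : ∀ f ∈ F, Commute f γ := by
    intro f hf
    induction hf using AddSubgroup.closure_induction with
    | mem x hx => obtain ⟨i, rfl⟩ := hx; exact (Commute.refl γ).pow_left i
    | zero => exact Commute.zero_left γ
    | add x y _ _ hx hy => exact hx.add_left hy
    | neg x _ hx => exact hx.neg_left
  have hFF : ∀ f ∈ F, ∀ g ∈ F, Commute f g := by
    intro f hf g hg
    induction hg using AddSubgroup.closure_induction with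
    | mem x hx => obtain ⟨i, rfl⟩ := hx; exact (hFγ f hf).pow_right i
    | zero => exact Commute.zero_right f
    | add x y _ _ hx hy => exact hx.add_right hy
    | neg x _ hx => exact hx.neg_right
  have hFmul : ∀ f ∈ F, γ * f ∈ F := by
    intro f hf
    induction hf using AddSubgroup.closure_induction with
    | mem x hx => obtain ⟨i, rfl⟩ := hx; exact AddSubgroup.subset_closure ⟨i + 1, pow_succ' γ i⟩
    | zero => rw [mul_zero]; exact zero_mem _
    | add x y _ _ hx hy => rw [mul_add]; exact add_mem hx hy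
    | neg x _ hx => rw [mul_neg]; exact neg_mem hx
  have hadj : ∀ f ∈ F, ∀ a b, β ((f ^ 2 ^ n) a) b = β a (f b) := by
    intro f hf
    induction hf using AddSubgroup.closure_induction with
    | mem x hx =>
      obtain ⟨i, rfl⟩ := hx
      have hγi : ∀ (i : ℕ) (a b : W), β ((γ ^ i) a) ((γ ^ i) b) = β a b := by
        intro i
        induction i with
        | zero => intro a b; rfl
        | succ i ih => intro a b; rw [pow_succ', hmul, hmul, hγβ, ih]
      intro a b
      have e : γ ^ i * (γ ^ i) ^ 2 ^ n = 1 := by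
        rw [← pow_succ', ← pow_mul, mul_comm, pow_mul, ← hn, hγ, one_pow]
      conv_lhs => rw [← hγi i, ← hmul (γ ^ i), e]
      rfl
    | zero =>
      intro a b
      rw [zero_pow (Nat.one_le_two_pow.trans_lt' Nat.zero_lt_one).ne']
      show β 0 b = β a 0
      rw [map_zero, map_zero]; rfl
    | add x y hx hy ihx ihy =>
      intro a b
      rw [add_pow_two_pow h2 (hFF x hx y hy)]
      show β ((x ^ 2 ^ n) a + (y ^ 2 ^ n) a) b = β a (x b + y b)
      rw [map_add, map_add, AddMonoidHom.add_apply, ihx, ihy]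
    | neg x hx ihx =>
      intro a b
      have e : -x = x := neg_eq_of_add_eq_zero_left (by rw [← two_mul, h2, zero_mul])
      rw [e]; exact ihx a b
  have hFv : ∀ (u : W), u ≠ 0 → ∀ w, ∃ f ∈ F, f u = w := by
    intro u hu w
    let L : AddSubgroup W :=
      { carrier := {x | ∃ f ∈ F, f u = x}
        zero_mem' := ⟨0, zero_mem _, rfl⟩
        add_mem' := by rintro _ _ ⟨f, hf, rfl⟩ ⟨g, hg, rfl⟩; exact ⟨f + g, add_mem hf hg, rfl⟩
        neg_mem' := by rintro _ ⟨f, hf, rfl⟩; exact ⟨-f, neg_mem hf, rfl⟩ }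
    have hL : L = ⊤ := hirr L (by rintro _ ⟨f, hf, rfl⟩; exact ⟨γ * f, hFmul f hf, rfl⟩) (fun h => hu (by
      have : u ∈ L := ⟨γ ^ 0, AddSubgroup.subset_closure ⟨0, rfl⟩, rfl⟩
      rwa [h, AddSubgroup.mem_bot] at this))
    exact (hL ▸ AddSubgroup.mem_top w : w ∈ L)
  obtain ⟨f, hf, hfv⟩ := hFv v hv (τ v)
  have hτF : ∀ g ∈ F, Commute τ g := by
    intro g hg
    induction hg using AddSubgroup.closure_induction with
    | mem x hx => obtain ⟨i, rfl⟩ := hx; exact hτγ.pow_right i
    | zero => exact Commute.zero_right τ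
    | add x y _ _ hx hy => exact hx.add_right hy
    | neg x _ hx => exact hx.neg_right
  have hτf : τ = f := by
    refine DFunLike.ext _ _ fun w => ?_
    obtain ⟨g, hg, rfl⟩ := hFv v hv w
    rw [← hmul, ← hmul, (hτF g hg).eq, hmul, ← hfv, ← hmul, (hFF g hg f hf).eq]
  have hτi : ∀ (i : ℕ) (a b : W), β ((τ ^ i) a) ((τ ^ i) b) = β a b := by
    intro i
    induction i with
    | zero => intro a b; rfl
    | succ i ih => intro a b; rw [pow_succ', hmul, hmul, hτβ, ih]
  have hkey : τ * τ ^ 2 ^ n = 1 := by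
    refine DFunLike.ext _ _ fun a => sub_eq_zero.1 (hnd _ fun b => ?_)
    obtain ⟨b', rfl⟩ : ∃ b', τ b' = b := by
      rcases Nat.eq_zero_or_pos m with rfl | hm0
      · exact absurd ((Nat.coprime_zero_left _).1 hm) hℓ.one_lt.ne'
      · exact ⟨(τ ^ (m - 1)) b, by rw [← hmul, ← pow_succ', Nat.sub_add_cancel hm0, hτm]; rfl⟩
    show β ((τ * τ ^ 2 ^ n) a - a) (τ b') = 0
    rw [map_sub, AddMonoidHom.sub_apply, hmul, hτβ, hτf, hadj f hf, sub_self]
  rw [← pow_succ', ← hn] at hkey
  have := pow_gcd_eq_one.2 ⟨hτm, hkey⟩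
  rwa [hm.gcd_eq_one, pow_one] at this

end CfsgLib.FpfPQ
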