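import Mathlib
import Cfsg.Agent.CoprimeAction.Basic
import Cfsg.Agent.CoprimeAction.Invariant
import Cfsg.Agent.CoprimeAction.Conjugacy

/-!
A non-abelian operator group of order `p q`, and elementary stabilisers of cosets.
-/

set_option autoImplicit false

namespace CfsgLib.FpfPQ

open scoped commutatorElement

variable {Γ : Type*} [Group Γ]

/-- Elements normalising `M` which fix `u` modulo `M`. -/
def coStab (M : Subgroup Γ) (u : Γ) : Subgroup Γ where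
  carrier := {g | g ∈ Subgroup.normalizer (M : Set Γ) ∧ g * u * g⁻¹ * u⁻¹ ∈ M}
  one_mem' := ⟨one_mem _, by simp⟩
  mul_mem' := fun {g h} hg hh => ⟨mul_mem hg.1 hh.1, by
    rw [show g * h * u * (g * h)⁻¹ * u⁻¹ = (g * (h * u * h⁻¹ * u⁻¹) * g⁻¹) * (g * u * g⁻¹ * u⁻¹) by group]
    exact mul_mem ((Subgroup.mem_normalizer_iff.1 hg.1 _).1 hh.2) hg.2⟩
  inv_mem' := fun {g} hg => ⟨inv_mem hg.1, by
    rw [show g⁻¹ * u * g⁻¹⁻¹ * u⁻¹ = g⁻¹ * (g * u * g⁻¹ * u⁻¹)⁻¹ * g by group]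
    exact (Subgroup.mem_normalizer_iff''.1 hg.1 _).1 (inv_mem hg.2)⟩

theorem mem_coStab {M : Subgroup Γ} {u g : Γ} :
    g ∈ coStab M u ↔ g ∈ Subgroup.normalizer (M : Set Γ) ∧ g * u * g⁻¹ * u⁻¹ ∈ M := Iff.rfl

/-- Elements normalising `R` and `M` which act trivially on `R` modulo `M`. -/
def trivAct (R M : Subgroup Γ) : Subgroup Γ where
  carrier := {g | g ∈ Subgroup.normalizer (R : Set Γ) ∧ g ∈ Subgroup.normalizer (M : Set Γ) ∧
    ∀ u ∈ R, g * u * g⁻¹ * u⁻¹ ∈ M}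
  one_mem' := ⟨one_mem _, one_mem _, fun u _ => by simp⟩
  mul_mem' := fun {g h} hg hh => ⟨mul_mem hg.1 hh.1, mul_mem hg.2.1 hh.2.1, fun u hu =>
    ((coStab M u).mul_mem ⟨hg.2.1, hg.2.2 u hu⟩ ⟨hh.2.1, hh.2.2 u hu⟩).2⟩
  inv_mem' := fun {g} hg => ⟨inv_mem hg.1, inv_mem hg.2.1, fun u hu =>
    ((coStab M u).inv_mem ⟨hg.2.1, hg.2.2 u hu⟩).2⟩

theorem mem_trivAct {R M : Subgroup Γ} {g : Γ} :
    g ∈ trivAct R M ↔ g ∈ Subgroup.normalizer (R : Set Γ) ∧ g ∈ Subgroup.normalizer (M : Set Γ) ∧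
      ∀ u ∈ R, g * u * g⁻¹ * u⁻¹ ∈ M := Iff.rfl

theorem conj_mem_trivAct {R M : Subgroup Γ} {g h : Γ} (hg : g ∈ trivAct R M)
    (h1 : h ∈ Subgroup.normalizer (R : Set Γ)) (h2 : h ∈ Subgroup.normalizer (M : Set Γ)) :
    h * g * h⁻¹ ∈ trivAct R M := by
  refine ⟨mul_mem (mul_mem h1 hg.1) (inv_mem h1), mul_mem (mul_mem h2 hg.2.1) (inv_mem h2), fun u hu => ?_⟩
  rw [show h * g * h⁻¹ * u * (h * g * h⁻¹)⁻¹ * u⁻¹ =
    h * (g * (h⁻¹ * u * h) * g⁻¹ * (h⁻¹ * u * h)⁻¹) * h⁻¹ by group]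
  exact (Subgroup.mem_normalizer_iff.1 h2 _).1 (hg.2.2 _ ((Subgroup.mem_normalizer_iff''.1 h1 u).1 hu))

/-- If `c` acts trivially on `R / M`, so does `[P, ⟨c⟩]`. -/
theorem commutator_le_trivAct {R M P : Subgroup Γ} {c : Γ} (hc : c ∈ trivAct R M)
    (hPR : P ≤ Subgroup.normalizer (R : Set Γ)) (hPM : P ≤ Subgroup.normalizer (M : Set Γ)) :
    ⁅P, Subgroup.zpowers c⁆ ≤ trivAct R M := by
  rw [Subgroup.commutator_le]
  intro w hw a ha
  have ha' : a ∈ trivAct R M := Subgroup.zpowers_le.2 hc ha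
  rw [commutatorElement_def]
  exact mul_mem (conj_mem_trivAct ha' (hPR hw) (hPM hw)) (inv_mem ha')

/-- A subgroup mapped into itself by conjugation is normalised. -/
theorem mem_normalizer_of_forall [Finite Γ] {M : Subgroup Γ} {g : Γ} (h : ∀ u ∈ M, g * u * g⁻¹ ∈ M) :
    g ∈ Subgroup.normalizer (M : Set Γ) := by
  rw [Subgroup.mem_normalizer_iff_map_conj_eq]
  refine Subgroup.eq_of_le_of_card_ge ?_ (Subgroup.card_map_of_injective (MulAut.conj g).injective).ge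
  rintro _ ⟨u, hu, rfl⟩
  exact h u hu

/-- The operator group. -/
structure Ops (A : Subgroup Γ) (x y : Γ) (p q : ℕ) : Prop where
  hp : p.Prime
  hq : q.Prime
  hpq : p ≠ q
  hx : x ∈ A
  hy : y ∈ A
  ox : orderOf x = p
  oy : orderOf y = q
  card : Nat.card A = p * q
  norm : A ≤ Subgroup.normalizer ((Subgroup.zpowers x : Subgroup Γ) : Set Γ)
  nc : x * y ≠ y * x
  solv : Group.IsSolvable A

namespace Ops

variable [Finite Γ] {A : Subgroup Γ} {x y : Γ} {p q : ℕ}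

theorem card_cases (O : Ops A x y p q) {H : Subgroup Γ} (hH : H ≤ A) :
    Nat.card H = 1 ∨ Nat.card H = p ∨ Nat.card H = q ∨ Nat.card H = p * q := by
  have hd := Subgroup.card_dvd_of_le hH
  rw [O.card, Nat.dvd_mul] at hd
  obtain ⟨a, b, ha, hb, hab⟩ := hd
  rcases (Nat.dvd_prime O.hp).1 ha with rfl | rfl <;> rcases (Nat.dvd_prime O.hq).1 hb with rfl | rfl <;>
    simp [← hab]

theorem not_comm (O : Ops A x y p q) : ¬ ∀ a ∈ A, ∀ b ∈ A, a * b = b * a := fun h => O.nc (h x O.hx y O.hy)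

theorem orderOf_cases (O : Ops A x y p q) {c : Γ} (hc : c ∈ A) (hc1 : c ≠ 1) :
    orderOf c = p ∨ orderOf c = q := by
  rcases O.card_cases (Subgroup.zpowers_le.2 hc) with h | h | h | h <;> rw [Nat.card_zpowers] at h
  · exact absurd (orderOf_eq_one_iff.1 h) hc1
  · exact Or.inl h
  · exact Or.inr h
  · exfalso
    refine O.not_comm fun a ha b hb => ?_
    have hA : Subgroup.zpowers c = A := Subgroup.eq_of_le_of_card_ge (Subgroup.zpowers_le.2 hc)
      (by rw [Nat.card_zpowers, h, O.card])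
    rw [← hA] at ha hb
    obtain ⟨i, rfl⟩ := Subgroup.mem_zpowers_iff.1 ha
    obtain ⟨j, rfl⟩ := Subgroup.mem_zpowers_iff.1 hb
    rw [← zpow_add, ← zpow_add, add_comm]

theorem prime_orderOf (O : Ops A x y p q) {c : Γ} (hc : c ∈ A) (hc1 : c ≠ 1) : (orderOf c).Prime := by
  rcases O.orderOf_cases hc hc1 with h | h <;> rw [h]
  exacts [O.hp, O.hq]

theorem sup_eq (O : Ops A x y p q) {c d : Γ} (hc : c ∈ A) (hd : d ∈ A) (hd1 : d ≠ 1)
    (hcd : c ∉ Subgroup.zpowers d) : Subgroup.zpowers d ⊔ Subgroup.zpowers c = A := by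
  have hle : Subgroup.zpowers d ⊔ Subgroup.zpowers c ≤ A :=
    sup_le (Subgroup.zpowers_le.2 hd) (Subgroup.zpowers_le.2 hc)
  refine Subgroup.eq_of_le_of_card_ge hle ?_
  rw [O.card]
  set H := Subgroup.zpowers d ⊔ Subgroup.zpowers c with hH
  have hlt : Nat.card (Subgroup.zpowers d) < Nat.card H :=
    lt_of_le_of_ne (Subgroup.card_le_of_le le_sup_left) fun h => hcd
      ((Subgroup.eq_of_le_of_card_ge (le_sup_left : Subgroup.zpowers d ≤ H) h.ge).ge
        (Subgroup.mem_sup_right (Subgroup.mem_zpowers c)))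
  have hdvd : Nat.card (Subgroup.zpowers d) ∣ Nat.card H := Subgroup.card_dvd_of_le le_sup_left
  rw [Nat.card_zpowers] at hlt hdvd
  have hdp := O.prime_orderOf hd hd1
  rcases O.card_cases hle with h | h | h | h <;> rw [h] at hlt hdvd
  · have := hdp.two_le; omega
  · exact absurd ((Nat.prime_dvd_prime_iff_eq hdp O.hp).1 hdvd) hlt.ne
  · exact absurd ((Nat.prime_dvd_prime_iff_eq hdp O.hq).1 hdvd) hlt.ne
  · exact h.ge

theorem x_ne_one (O : Ops A x y p q) : x ≠ 1 := fun h => O.nc (by rw [h, one_mul, mul_one])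

theorem zpowers_eq (O : Ops A x y p q) {c : Γ} (hc1 : c ≠ 1) (hcx : c ∈ Subgroup.zpowers x) :
    Subgroup.zpowers c = Subgroup.zpowers x := by
  refine Subgroup.eq_of_le_of_card_ge (Subgroup.zpowers_le.2 hcx) ?_
  rw [Nat.card_zpowers, Nat.card_zpowers, O.ox]
  have hd : orderOf c ∣ p := by rw [← O.ox, ← Nat.card_zpowers x]; exact Subgroup.orderOf_dvd_natCard _ hcx
  exact ((O.hp.eq_one_or_self_of_dvd _ hd).resolve_left fun e => hc1 (orderOf_eq_one_iff.1 e)).ge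

theorem y_not_mem (O : Ops A x y p q) : y ∉ Subgroup.zpowers x := fun h => O.nc (by
  obtain ⟨i, rfl⟩ := Subgroup.mem_zpowers_iff.1 h
  exact (Commute.self_zpow x i).eq)

/-- The subgroup of order `p` consists of powers of the commutator of `x` and `y`. -/
theorem mem_of_commutator_mem (O : Ops A x y p q) {S : Subgroup Γ} (h : y * x * y⁻¹ * x⁻¹ ∈ S) : x ∈ S := by
  have hmem : y * x * y⁻¹ * x⁻¹ ∈ Subgroup.zpowers x :=
    mul_mem ((Subgroup.mem_normalizer_iff.1 (O.norm O.hy) x).1 (Subgroup.mem_zpowers x))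
      (inv_mem (Subgroup.mem_zpowers x))
  have hne : y * x * y⁻¹ * x⁻¹ ≠ 1 := fun e => O.nc ((mul_inv_eq_iff_eq_mul.1 (mul_inv_eq_one.1 e)).symm)
  exact Subgroup.zpowers_le.2 h ((O.zpowers_eq hne hmem).ge (Subgroup.mem_zpowers x))

/-- Conjugates of a complement by elements of the kernel are other complements. -/
theorem conj_not_mem (O : Ops A x y p q) {g c : Γ} (hg : g ∈ Subgroup.zpowers x) (hg1 : g ≠ 1) (hc : c ∈ A)
    (hcX : c ∉ Subgroup.zpowers x) : g * c * g⁻¹ ∉ Subgroup.zpowers c := by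
  intro h
  have hc1 : c ≠ 1 := fun e => hcX (e ▸ one_mem _)
  have h1 : g * c * g⁻¹ * c⁻¹ ∈ Subgroup.zpowers x := by
    rw [mul_assoc g c, mul_assoc g]
    exact mul_mem hg ((Subgroup.mem_normalizer_iff.1 (O.norm hc) _).1 (inv_mem hg))
  have h2 : g * c * g⁻¹ * c⁻¹ ∈ Subgroup.zpowers c := mul_mem h (inv_mem (Subgroup.mem_zpowers c))
  have h3 : g * c * g⁻¹ * c⁻¹ = 1 := by
    by_contra hne
    refine hcX (Subgroup.zpowers_le.2 h1 ?_)
    have : Subgroup.zpowers (g * c * g⁻¹ * c⁻¹) = Subgroup.zpowers c := by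
      refine Subgroup.eq_of_le_of_card_ge (Subgroup.zpowers_le.2 h2) ?_
      rw [Nat.card_zpowers, Nat.card_zpowers]
      refine (((O.prime_orderOf hc hc1).eq_one_or_self_of_dvd _ ?_).resolve_left
        fun e => hne (orderOf_eq_one_iff.1 e)).ge
      rw [← Nat.card_zpowers c]
      exact Subgroup.orderOf_dvd_natCard _ h2
    exact this.ge (Subgroup.mem_zpowers c)
  have hgc : Commute g c := mul_inv_eq_iff_eq_mul.1 (mul_inv_eq_one.1 h3)
  obtain ⟨i, hi⟩ := Subgroup.mem_zpowers_iff.1 ((O.zpowers_eq hg1 hg).ge (Subgroup.mem_zpowers x))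
  have hle : A ≤ Subgroup.centralizer ({x} : Set Γ) := by
    rw [← O.sup_eq hc O.hx O.x_ne_one hcX]
    refine sup_le (Subgroup.zpowers_le.2 (Subgroup.mem_centralizer_singleton_iff.2 rfl))
      (Subgroup.zpowers_le.2 (Subgroup.mem_centralizer_singleton_iff.2 ?_))
    rw [← hi]
    exact (hgc.zpow_left i).eq.symm
  exact O.nc (Subgroup.mem_centralizer_singleton_iff.1 (hle O.hy)).symm

/-- A subgroup of the operator group is trivial, everything, or cyclic of prime order. -/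
theorem subgroup_cases (O : Ops A x y p q) {H : Subgroup Γ} (hH : H ≤ A) :
    H = ⊥ ∨ x ∈ H ∧ y ∈ H ∧ A ≤ H ∨ ∃ c ∈ A, c ≠ 1 ∧ H = Subgroup.zpowers c := by
  rcases eq_or_ne H ⊥ with h | h
  · exact Or.inl h
  haveI := (Subgroup.nontrivial_iff_ne_bot H).2 h
  obtain ⟨⟨c, hc⟩, hc1⟩ := exists_ne (1 : H)
  have hc1' : c ≠ 1 := fun e => hc1 (Subtype.ext e)
  by_cases hHc : H ≤ Subgroup.zpowers c
  · exact Or.inr (Or.inr ⟨c, hH hc, hc1', le_antisymm hHc (Subgroup.zpowers_le.2 hc)⟩)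
  · obtain ⟨d, hd, hdc⟩ := Set.not_subset.1 hHc
    have hA : A ≤ H := (O.sup_eq (hH hd) (hH hc) hc1' hdc).ge.trans
      (sup_le (Subgroup.zpowers_le.2 hc) (Subgroup.zpowers_le.2 hd))
    exact Or.inr (Or.inl ⟨hA O.hx, hA O.hy, hA⟩)

end Ops

end CfsgLib.FpfPQ
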