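import Mathlib
import Cfsg.Agent.FpfPQ.Ops
import Cfsg.Agent.CoprimeAction.Abelian
import Cfsg.Agent.CoprimeAction.Frattini

/-!
The configuration `V`, `R`, `P`, `A` and its first consequences.
-/

set_option autoImplicit false

namespace CfsgLib.FpfPQ

open scoped commutatorElement
open CfsgLib.CoprimeAction

variable {Γ : Type*} [Group Γ] [Finite Γ] {r : ℕ} [Fact r.Prime] {U : Type*} [AddCommGroup U] [Module (ZMod r) U]

/-- `A` acts on the `s`-group `R`, the `t`-group `P` and the module `U` without common fixed points. -/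
structure Setup (s t p q : ℕ) (ρ : Γ →* Module.End (ZMod r) U) (A P R : Subgroup Γ) (x y : Γ) : Prop where
  ops : Ops A x y p q
  hs : s.Prime
  ht : t.Prime
  hsr : s ≠ r
  hts : t ≠ s
  hps : p ≠ s
  hqs : q ≠ s
  hpt : p ≠ t
  hqt : q ≠ t
  hpr : p ≠ r
  hqr : q ≠ r
  hR : IsPGroup s R
  hP : IsPGroup t P
  hAR : A ≤ Subgroup.normalizer (R : Set Γ)
  hAP : A ≤ Subgroup.normalizer (P : Set Γ)
  hPR : P ≤ Subgroup.normalizer (R : Set Γ)
  fixU : ∀ u : U, (∀ a ∈ A, ρ a u = u) → u = 0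
  fixR : ∀ g ∈ R, (∀ a ∈ A, Commute a g) → g = 1
  fixP : ∀ g ∈ P, (∀ a ∈ A, Commute a g) → g = 1
  faith : ∀ g ∈ R, ρ g = 1 → g = 1
  comm : ∀ u ∈ R, ∀ w ∈ P, Commute x u → Commute x w → Commute u w

namespace Setup

variable {s t p q : ℕ} {ρ : Γ →* Module.End (ZMod r) U} {A P R : Subgroup Γ} {x y : Γ}

theorem coprime_A (S : Setup s t p q ρ A P R x y) {M : Subgroup Γ} {v : ℕ} (hv : v.Prime) (hM : IsPGroup v M)
    (hpv : p ≠ v) (hqv : q ≠ v) : (Nat.card A).Coprime (Nat.card M) := by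
  haveI := Fact.mk hv
  obtain ⟨k, hk⟩ := hM.exists_card_eq
  rw [S.ops.card, hk]
  exact (Nat.Coprime.mul_left ((Nat.coprime_primes S.ops.hp hv).2 hpv) ((Nat.coprime_primes S.ops.hq hv).2 hqv)).pow_right k

theorem coprime_AR (S : Setup s t p q ρ A P R x y) : (Nat.card A).Coprime (Nat.card R) :=
  S.coprime_A S.hs S.hR S.hps S.hqs

theorem coprime_AP (S : Setup s t p q ρ A P R x y) : (Nat.card A).Coprime (Nat.card P) :=
  S.coprime_A S.ht S.hP S.hpt S.hqt

theorem coprime_PR (S : Setup s t p q ρ A P R x y) : (Nat.card P).Coprime (Nat.card R) := by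
  haveI := Fact.mk S.hs
  haveI := Fact.mk S.ht
  exact IsPGroup.coprime_card_of_ne t s S.hts _ _ S.hP S.hR

theorem zpowers_coprime (S : Setup s t p q ρ A P R x y) {c : Γ} (hc : c ∈ A) {M : Subgroup Γ} (hM : M ≤ R) :
    (Nat.card (Subgroup.zpowers c)).Coprime (Nat.card M) :=
  (S.coprime_AR.coprime_dvd_right (Subgroup.card_dvd_of_le hM)).coprime_dvd_left
    (Subgroup.card_dvd_of_le (Subgroup.zpowers_le.2 hc))

theorem solvable_zpowers (c : Γ) : Group.IsSolvable (Subgroup.zpowers c) := by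
  letI : CommGroup (Subgroup.zpowers c) := IsCyclic.commGroup
  infer_instance

/-- A coset fixed modulo a subgroup of `R` contains a fixed element. -/
theorem exists_fixed_rep (S : Setup s t p q ρ A P R x y) {c : Γ} (hc : c ∈ A) {M : Subgroup Γ} (hM : M ≤ R)
    {u : Γ} (h : c ∈ coStab M u) : ∃ n ∈ M, Commute c (n * u) := by
  have hle : Subgroup.zpowers c ≤ coStab M u := Subgroup.zpowers_le.2 h
  obtain ⟨n, hn, hn'⟩ := exists_mem_centralizer (A := Subgroup.zpowers c) (N := M) (k := u)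
    (fun a ha => (hle ha).1) (S.zpowers_coprime hc hM) (Or.inl (solvable_zpowers c)) (fun a ha => (hle ha).2)
  exact ⟨n, hn, Subgroup.mem_centralizer_iff.1 hn' c (Subgroup.mem_zpowers c)⟩

end Setup

/-- The configuration after minimisation. -/
structure Reduced (s t p q : ℕ) (ρ : Γ →* Module.End (ZMod r) U) (A P R : Subgroup Γ) (x y : Γ) : Prop
    extends Setup s t p q ρ A P R x y where
  hne : ¬ P ≤ Subgroup.centralizer (R : Set Γ)
  hPA : ⁅P, A⁆ = P
  hdich : (∀ w ∈ P, Commute x w) ∨ ⁅P, Subgroup.zpowers x⁆ = P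
  hRP : ⁅R, P⁆ = R
  hfrat : (frattini R).map R.subtype ≤ Subgroup.centralizer (P : Set Γ)
  hPab : ⁅P, P⁆ ≤ Subgroup.centralizer (R : Set Γ)

namespace Reduced

variable {s t p q : ℕ} {ρ : Γ →* Module.End (ZMod r) U} {A P R : Subgroup Γ} {x y : Γ}

theorem commutator_mem_cent (S : Reduced s t p q ρ A P R x y) {u v : Γ} (hu : u ∈ R) (hv : v ∈ R) :
    ∀ w ∈ P, Commute ⁅u, v⁆ w := fun w hw => by
  haveI := Fact.mk S.hs
  have h : ⁅(⟨u, hu⟩ : R), ⟨v, hv⟩⁆ ∈ frattini R := commutator_le_frattini' S.hR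
    (Subgroup.commutator_mem_commutator (Subgroup.mem_top _) (Subgroup.mem_top _))
  exact (Subgroup.mem_centralizer_iff.1 (S.hfrat ⟨_, h, rfl⟩) w hw).symm

theorem pow_mem_cent (S : Reduced s t p q ρ A P R x y) {u : Γ} (hu : u ∈ R) :
    ∀ w ∈ P, Commute (u ^ s) w := fun w hw => by
  haveI := Fact.mk S.hs
  exact (Subgroup.mem_centralizer_iff.1 (S.hfrat ⟨_, pow_mem_frattini S.hR ⟨u, hu⟩, by simp⟩) w hw).symm

/-- What `P` centralises in `R` is central in `R`. -/
theorem cent_central (S : Reduced s t p q ρ A P R x y) {d : Γ} (hd : d ∈ R) (hdP : ∀ w ∈ P, Commute d w) :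
    ∀ u ∈ R, Commute d u := by
  set D : Subgroup Γ := R ⊓ Subgroup.centralizer (P : Set Γ) with hD
  have hR' : ⁅R, R⁆ ≤ Subgroup.centralizer (P : Set Γ) := Subgroup.commutator_le.2 fun a ha b hb =>
    Subgroup.mem_centralizer_iff.2 fun w hw => (S.commutator_mem_cent ha hb w hw).eq.symm
  have h1 : ⁅⁅P, D⁆, R⁆ = ⊥ := by
    rw [show ⁅P, D⁆ = ⊥ from Subgroup.commutator_eq_bot_iff_le_centralizer.2
      (Subgroup.le_centralizer_iff.1 inf_le_right), Subgroup.commutator_bot_left]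
  have h2 : ⁅⁅D, R⁆, P⁆ = ⊥ := by
    rw [Subgroup.commutator_eq_bot_iff_le_centralizer]
    exact (Subgroup.commutator_mono inf_le_left le_rfl).trans hR'
  have h3 := Subgroup.commutator_commutator_eq_bot_of_rotate h1 h2
  rw [S.hRP, Subgroup.commutator_eq_bot_iff_le_centralizer] at h3
  intro u hu
  exact Subgroup.mem_centralizer_iff.1 (h3 hu) d ⟨hd, Subgroup.mem_centralizer_iff.2 fun w hw => (hdP w hw).eq.symm⟩

theorem class_two (S : Reduced s t p q ρ A P R x y) {u v w : Γ} (hu : u ∈ R) (hv : v ∈ R) (hw : w ∈ R) :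
    Commute ⁅u, v⁆ w :=
  S.cent_central (mul_mem (mul_mem (mul_mem hu hv) (inv_mem hu)) (inv_mem hv))
    (S.commutator_mem_cent hu hv) w hw

/-- Elements fixed modulo `M` by `c` lie in `C_R(P) M`, if `[R, [P, c]] ≤ M`. -/
theorem fixed_mem (S : Reduced s t p q ρ A P R x y) {M : Subgroup Γ} (hMR : M ≤ R)
    (hRM : R ≤ Subgroup.normalizer (M : Set Γ)) {c : Γ} (hcA : c ∈ A) (hc1 : c ≠ 1)
    (hN : ⁅P, Subgroup.zpowers c⁆ ≤ trivAct R M) {u : Γ} (hu : u ∈ R) (hfix : c ∈ coStab M u) :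
    u ∈ R ⊓ Subgroup.centralizer (P : Set Γ) ⊔ M := by
  classical
  set D : Subgroup Γ := R ⊓ Subgroup.centralizer (P : Set Γ) with hD
  have hcM : c ∈ Subgroup.normalizer (M : Set Γ) := hfix.1
  have hRN : ⁅R, ⁅P, Subgroup.zpowers c⁆⁆ ≤ M := Subgroup.commutator_le.2 fun a ha w hw => by
    rw [commutatorElement_def, show a * w * a⁻¹ * w⁻¹ = (w * a * w⁻¹ * a⁻¹)⁻¹ by group]
    exact inv_mem ((hN hw).2.2 a ha)
  by_cases hcX : c ∈ Subgroup.zpowers x
  · have hXc := S.ops.zpowers_eq hc1 hcX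
    rcases S.hdich with hA | hB
    · obtain ⟨n, hn, hcn⟩ := S.exists_fixed_rep hcA hMR hfix
      obtain ⟨i, hi⟩ := Subgroup.mem_zpowers_iff.1 (hXc.ge (Subgroup.mem_zpowers x))
      have hxn : Commute x (n * u) := hi ▸ hcn.zpow_left i
      have hnu : n * u ∈ R := mul_mem (hMR hn) hu
      rw [show u = n⁻¹ * (n * u) by group]
      exact mul_mem (Subgroup.mem_sup_right (inv_mem hn)) (Subgroup.mem_sup_left ⟨hnu,
        Subgroup.mem_centralizer_iff.2 fun w hw => (S.comm _ hnu w hw hxn (hA w hw)).eq.symm⟩)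
    · rw [hXc, hB, S.hRP] at hRN
      exact Subgroup.mem_sup_right (hRN hu)
  set X := Subgroup.zpowers x with hX
  set N := ⁅P, Subgroup.zpowers c⁆ with hNdef
  have hcP : Subgroup.zpowers c ≤ Subgroup.normalizer (P : Set Γ) := (Subgroup.zpowers_le.2 hcA).trans S.hAP
  have hNP : N ≤ P := commutator_le_of_normalizer hcP
  have hNR : N ≤ Subgroup.normalizer (R : Set Γ) := hNP.trans S.hPR
  have hcopNR : (Nat.card N).Coprime (Nat.card R) := S.coprime_PR.coprime_dvd_left (Subgroup.card_dvd_of_le hNP)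
  haveI := Fact.mk S.ht
  haveI := Fact.mk S.hs
  haveI := (S.hP.to_le hNP).isNilpotent
  have hsolN : Group.IsSolvable N := inferInstance
  -- a representative centralised by `N` and `c`
  obtain ⟨n, hn, k, ⟨hkR, hkN⟩, hnk⟩ := exists_commutator_mul_centralizer hNR hcopNR (Or.inl hsolN) hu
  have hn' : n ∈ M := hRN hn
  have hkfix : c ∈ coStab (M ⊓ Subgroup.centralizer (N : Set Γ)) k := by
    have hcN : c ∈ Subgroup.normalizer (N : Set Γ) :=
      CoprimeAction.le_normalizer_commutator hcP (Subgroup.mem_zpowers c)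
    have hcC : c ∈ Subgroup.normalizer ((Subgroup.centralizer (N : Set Γ) : Subgroup Γ) : Set Γ) := by
      refine mem_normalizer_of_forall fun z hz => Subgroup.mem_centralizer_iff.2 fun w hw => ?_
      have := Subgroup.mem_centralizer_iff.1 hz _ ((Subgroup.mem_normalizer_iff''.1 hcN w).1 hw)
      calc w * (c * z * c⁻¹) = c * ((c⁻¹ * w * c) * z) * c⁻¹ := by group
        _ = c * (z * (c⁻¹ * w * c)) * c⁻¹ := by rw [this]
        _ = c * z * c⁻¹ * w := by group
    refine ⟨Subgroup.inf_normalizer_le_normalizer_inf ⟨hcM, hcC⟩, ?_, ?_⟩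
    · have h1 : c * u * c⁻¹ * u⁻¹ ∈ M := hfix.2
      have h2 : c * n * c⁻¹ ∈ M := (Subgroup.mem_normalizer_iff.1 hcM _).1 hn'
      rw [← hnk] at h1
      have h3 := mul_mem (mul_mem (inv_mem h2) h1) hn'
      rwa [show (c * n * c⁻¹)⁻¹ * (c * (n * k) * c⁻¹ * (n * k)⁻¹) * n = c * k * c⁻¹ * k⁻¹ by group] at h3
    · exact (Subgroup.centralizer (N : Set Γ)).mul_mem ((Subgroup.mem_normalizer_iff.1 hcC _).1 hkN)
        ((Subgroup.centralizer (N : Set Γ)).inv_mem hkN)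
  obtain ⟨n1, ⟨hn1, hn1N⟩, hk0c⟩ := S.exists_fixed_rep hcA (inf_le_left.trans hMR) hkfix
  set k0 := n1 * k with hk0
  have hk0R : k0 ∈ R := mul_mem (hMR hn1) hkR
  have hk0N : k0 ∈ Subgroup.centralizer (N : Set Γ) := mul_mem hn1N hkN
  suffices hk : k0 ∈ D ⊔ M by
    rw [← hnk, show n * k = (n * n1⁻¹) * k0 by rw [hk0]; group]
    exact mul_mem (Subgroup.mem_sup_right (mul_mem hn' (inv_mem hn1))) hk
  -- conjugates
  have hXA : X ≤ A := Subgroup.zpowers_le.2 S.ops.hx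
  let cj : Γ → MulAut R := fun g =>
    if h : g ∈ Subgroup.normalizer (R : Set Γ) then R.normalizerMonoidHom ⟨g, h⟩ else 1
  have hcj : ∀ g ∈ Subgroup.normalizer (R : Set Γ), ∀ v : R, ((cj g v : R) : Γ) = g * v * g⁻¹ :=
    fun g hg v => by simp only [cj, dif_pos hg]; rfl
  haveI : Fintype X := Fintype.ofFinite X
  let z : Abelianization R := ∏ g : X, Abelianization.of (cj (g : Γ) ⟨k0, hk0R⟩)
  obtain ⟨zr, hzr⟩ := QuotientGroup.mk_surjective z
  replace hzr : Abelianization.of zr = z := hzr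
  set R' := (commutator R).map R.subtype with hR'
  have hAR' : A ≤ Subgroup.normalizer (R' : Set Γ) := fun a ha => by
    refine mem_normalizer_of_forall ?_
    rintro _ ⟨v, hv, rfl⟩
    exact ⟨cj a v, Subgroup.characteristic_iff_map_le.1 (inferInstance : (commutator R).Characteristic) (cj a)
      ⟨v, hv, rfl⟩, hcj a (S.hAR ha) v⟩
  have hzfix : ∀ a ∈ A, Abelianization.map (cj a).toMonoidHom z = z → a ∈ coStab R' (zr : Γ) := by
    intro a ha h
    refine ⟨hAR' ha, ?_⟩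
    rw [← hzr, Abelianization.map_of, ← mul_inv_eq_one, ← map_inv, ← map_mul] at h
    have h2 : cj a zr * zr⁻¹ ∈ commutator R := by rw [← Abelianization.ker_of]; exact h
    exact ⟨_, h2, by rw [map_mul, map_inv]; show ((cj a zr : R) : Γ) * _ = _; rw [hcj a (S.hAR ha)]; rfl⟩
  have hAz : A ≤ coStab R' (zr : Γ) := by
    rw [← S.ops.sup_eq hcA S.ops.hx S.ops.x_ne_one hcX]
    refine sup_le (fun a ha => hzfix a (hXA ha) ?_) (Subgroup.zpowers_le.2 (hzfix c hcA ?_))
    · rw [map_prod]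
      refine Fintype.prod_equiv (Equiv.mulLeft (⟨a, ha⟩ : X)) _ _ fun g => ?_
      rw [Abelianization.map_of]
      refine congrArg _ (Subtype.ext ?_)
      show ((cj a (cj (g : Γ) ⟨k0, hk0R⟩) : R) : Γ) = (cj (a * (g : Γ)) ⟨k0, hk0R⟩ : R)
      rw [hcj a (S.hAR (hXA ha)), hcj _ (S.hAR (hXA g.2)),
        hcj _ (mul_mem (S.hAR (hXA ha)) (S.hAR (hXA g.2)))]
      group
    · have hcXn : c ∈ Subgroup.normalizer (X : Set Γ) := S.ops.norm hcA
      rw [map_prod]
      refine Fintype.prod_equiv (X.normalizerMonoidHom ⟨c, hcXn⟩).toEquiv _ _ fun g => ?_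
      rw [Abelianization.map_of]
      refine congrArg _ (Subtype.ext ?_)
      have hgc : c * (g : Γ) * c⁻¹ ∈ A := mul_mem (mul_mem hcA (hXA g.2)) (inv_mem hcA)
      show ((cj c (cj (g : Γ) ⟨k0, hk0R⟩) : R) : Γ) = (cj (c * (g : Γ) * c⁻¹) ⟨k0, hk0R⟩ : R)
      rw [hcj c (S.hAR hcA), hcj _ (S.hAR (hXA g.2)), hcj _ (S.hAR hgc)]
      have e : c * k0 * c⁻¹ = k0 := mul_inv_eq_iff_eq_mul.2 hk0c.eq
      calc c * ((g : Γ) * k0 * (g : Γ)⁻¹) * c⁻¹
          = (c * (g : Γ) * c⁻¹) * (c * k0 * c⁻¹) * (c * (g : Γ) * c⁻¹)⁻¹ := by group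
        _ = _ := by rw [e]
  have hR'R : R' ≤ R := Subgroup.map_subtype_le _
  have hz1 : z = 1 := by
    obtain ⟨m, hm, hmc⟩ := exists_mem_centralizer (A := A) (N := R') (k := (zr : Γ)) hAR'
      (S.coprime_AR.coprime_dvd_right (Subgroup.card_dvd_of_le hR'R)) (Or.inl S.ops.solv)
      (fun a ha => (hAz ha).2)
    have h1 := S.fixR _ (mul_mem (hR'R hm) zr.2) fun a ha => Subgroup.mem_centralizer_iff.1 hmc a ha
    have h2 : (zr : Γ) ∈ R' := by
      rw [eq_inv_of_mul_eq_one_right h1]; exact inv_mem hm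
    obtain ⟨v, hv, hvz⟩ := h2
    rw [← hzr, ← MonoidHom.mem_ker, Abelianization.ker_of, ← show v = zr from Subtype.ext hvz]
    exact hv
  -- the translates other than `k0` lie in `D M`
  have hother : ∀ g : X, (g : Γ) ≠ 1 → (g : Γ) * k0 * (g : Γ)⁻¹ ∈ D ⊔ M := by
    intro g hg1
    set d := (g : Γ) * c * (g : Γ)⁻¹ with hd
    have hgA : (g : Γ) ∈ A := hXA g.2
    have hdA : d ∈ A := mul_mem (mul_mem hgA hcA) (inv_mem hgA)
    have hdc : d ∉ Subgroup.zpowers c := S.ops.conj_not_mem g.2 hg1 hcA hcX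
    set Nd := ⁅P, Subgroup.zpowers d⁆ with hNd
    have hdP : Subgroup.zpowers d ≤ Subgroup.normalizer (P : Set Γ) := (Subgroup.zpowers_le.2 hdA).trans S.hAP
    have hNdP : Nd ≤ P := commutator_le_of_normalizer hdP
    have hNPn : P ≤ Subgroup.normalizer (N : Set Γ) := self_le_normalizer_commutator
    have hNdPn : P ≤ Subgroup.normalizer (Nd : Set Γ) := self_le_normalizer_commutator
    -- `[P,A] ≤ N N_d`
    let L := N ⊔ Nd
    have hLP : L ≤ P := sup_le hNP hNdP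
    let T : Subgroup Γ :=
      { carrier := {a | a ∈ A ∧ ∀ w ∈ P, ⁅w, a⁆ ∈ L}
        one_mem' := ⟨one_mem A, fun w _ => by rw [commutatorElement_one_right]; exact one_mem L⟩
        mul_mem' := fun {a b} ha hb => ⟨mul_mem ha.1 hb.1, fun w hw => by
          have h1 := inv_mem (ha.2 _ (hLP (hb.2 w hw)))
          rw [show ⁅w, a * b⁆ = ⁅w, a⁆ * (⁅⁅w, b⁆, a⁆⁻¹ * ⁅w, b⁆) by simp only [commutatorElement_def]; group]
          exact mul_mem (ha.2 w hw) (mul_mem h1 (hb.2 w hw))⟩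
        inv_mem' := fun {a} ha => ⟨inv_mem ha.1, fun w hw => by
          have h1 := ha.2 _ ((Subgroup.mem_normalizer_iff''.1 (S.hAP ha.1) w).1 hw)
          rw [show ⁅w, a⁻¹⁆ = ⁅a⁻¹ * w * a, a⁆⁻¹ by simp only [commutatorElement_def]; group]
          exact inv_mem h1⟩ }
    have hAT : A ≤ T := by
      rw [← S.ops.sup_eq hdA hcA hc1 hdc]
      exact sup_le (Subgroup.zpowers_le.2 ⟨hcA, fun w hw => Subgroup.mem_sup_left
          (Subgroup.commutator_mem_commutator hw (Subgroup.mem_zpowers c))⟩)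
        (Subgroup.zpowers_le.2 ⟨hdA, fun w hw => Subgroup.mem_sup_right
          (Subgroup.commutator_mem_commutator hw (Subgroup.mem_zpowers d))⟩)
    have hPL : P ≤ L := S.hPA.ge.trans (Subgroup.commutator_le.2 fun w hw a ha => (hAT ha).2 w hw)
    set K := R ⊓ Subgroup.centralizer (Nd : Set Γ) with hK
    have hNK : N ≤ Subgroup.normalizer (K : Set Γ) := by
      intro w hw
      refine mem_normalizer_of_forall fun v hv =>
        ⟨(Subgroup.mem_normalizer_iff.1 (hNR hw) v).1 hv.1, Subgroup.mem_centralizer_iff.2 fun e he => ?_⟩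
      have := Subgroup.mem_centralizer_iff.1 hv.2 _ ((Subgroup.mem_normalizer_iff''.1 (hNdPn (hNP hw)) e).1 he)
      calc e * (w * v * w⁻¹) = w * ((w⁻¹ * e * w) * v) * w⁻¹ := by group
        _ = w * (v * (w⁻¹ * e * w)) * w⁻¹ := by rw [this]
        _ = w * v * w⁻¹ * e := by group
    have hkK : (g : Γ) * k0 * (g : Γ)⁻¹ ∈ K := by
      refine ⟨(Subgroup.mem_normalizer_iff.1 (S.hAR hgA) _).1 hk0R, ?_⟩
      have hle : Nd ≤ N.map (MulAut.conj (g : Γ)).toMonoidHom := by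
        have hmp : P.map (MulAut.conj (g : Γ)).toMonoidHom = P := Subgroup.mem_normalizer_iff_map_conj_eq.1 (S.hAP hgA)
        rw [hNdef, Subgroup.map_commutator, hmp, MonoidHom.map_zpowers]
        exact le_rfl
      refine Subgroup.mem_centralizer_iff.2 fun e he => ?_
      obtain ⟨w, hw, rfl⟩ := hle he
      show (g : Γ) * w * (g : Γ)⁻¹ * _ = _ * ((g : Γ) * w * (g : Γ)⁻¹)
      have := Subgroup.mem_centralizer_iff.1 hk0N w hw
      calc (g : Γ) * w * (g : Γ)⁻¹ * ((g : Γ) * k0 * (g : Γ)⁻¹) = (g : Γ) * (w * k0) * (g : Γ)⁻¹ := by group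
        _ = (g : Γ) * (k0 * w) * (g : Γ)⁻¹ := by rw [this]
        _ = _ := by group
    obtain ⟨a1, ha1, a2, ⟨ha2, ha2N⟩, ha12⟩ := exists_commutator_mul_centralizer hNK
      (hcopNR.coprime_dvd_right (Subgroup.card_dvd_of_le inf_le_left)) (Or.inl hsolN) hkK
    rw [← ha12]
    refine mul_mem (Subgroup.mem_sup_right (hRN (Subgroup.commutator_mono inf_le_left le_rfl ha1)))
      (Subgroup.mem_sup_left ⟨ha2.1, ?_⟩)
    have hc2 : L ≤ Subgroup.centralizer ({a2} : Set Γ) := sup_le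
      (fun e he => Subgroup.mem_centralizer_singleton_iff.2 (Subgroup.mem_centralizer_iff.1 ha2N e he))
      (fun e he => Subgroup.mem_centralizer_singleton_iff.2 (Subgroup.mem_centralizer_iff.1 ha2.2 e he))
    exact Subgroup.mem_centralizer_iff.2 fun e he =>
      Subgroup.mem_centralizer_singleton_iff.1 (hc2 (hPL he))
  -- conclusion in the abelianization
  set L0 : Subgroup R := (D ⊔ M).subgroupOf R with hL0
  have hcommL : commutator R ≤ L0 := by
    rw [commutator_def, Subgroup.commutator_le]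
    intro a _ b _
    refine Subgroup.mem_subgroupOf.2 (Subgroup.mem_sup_left ⟨⁅a, b⁆.2, Subgroup.mem_centralizer_iff.2 fun w hw => ?_⟩)
    rw [show ((⁅a, b⁆ : R) : Γ) = ⁅(a : Γ), (b : Γ)⁆ from map_commutatorElement R.subtype a b]
    exact (S.commutator_mem_cent a.2 b.2 w hw).eq.symm
  have hmem : Abelianization.of (⟨k0, hk0R⟩ : R) ∈ L0.map Abelianization.of := by
    have hspl := Finset.mul_prod_erase (Finset.univ : Finset X)
      (fun g : X => Abelianization.of (cj (g : Γ) ⟨k0, hk0R⟩)) (Finset.mem_univ 1)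
    have h1 : cj ((1 : X) : Γ) ⟨k0, hk0R⟩ = ⟨k0, hk0R⟩ := Subtype.ext (by
      rw [hcj _ (by rw [OneMemClass.coe_one]; exact one_mem _)]; simp)
    rw [h1, show ∏ g : X, Abelianization.of (cj (g : Γ) ⟨k0, hk0R⟩) = 1 from hz1, mul_eq_one_iff_eq_inv] at hspl
    rw [hspl]
    refine inv_mem (prod_mem fun g hg => ⟨_, Subgroup.mem_subgroupOf.2 ?_, rfl⟩)
    rw [hcj _ (S.hAR (hXA g.2))]
    exact hother g fun e => (Finset.mem_erase.1 hg).1 (Subtype.ext e)
  obtain ⟨l, hl, hle⟩ := hmem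
  have h2 : l⁻¹ * ⟨k0, hk0R⟩ ∈ L0 := hcommL (by
    rw [← Abelianization.ker_of, MonoidHom.mem_ker, map_mul, map_inv, hle, inv_mul_cancel])
  have h3 := mul_mem hl h2
  rw [mul_inv_cancel_left] at h3
  exact Subgroup.mem_subgroupOf.1 h3

/-- No element of prime order of `A` acts trivially on a proper invariant quotient of `R`. -/
theorem false_of_trivial (S : Reduced s t p q ρ A P R x y) {M : Subgroup Γ} (hMR : M ≤ R) (hne : M ≠ R)
    (hRM : R ≤ Subgroup.normalizer (M : Set Γ)) (hPM : P ≤ Subgroup.normalizer (M : Set Γ))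
    {c : Γ} (hcA : c ∈ A) (hc1 : c ≠ 1) (hc : c ∈ trivAct R M) : False := by
  refine hne (le_antisymm hMR ?_)
  calc R = ⁅R, P⁆ := S.hRP.symm
    _ ≤ M := Subgroup.commutator_le.2 fun u hu w hw => ?_
  have hN := commutator_le_trivAct hc S.hPR hPM
  obtain ⟨d, hd, m, hm, rfl⟩ := exists_mul_of_mem_sup (A := R ⊓ Subgroup.centralizer (P : Set Γ)) (K := M)
    (inf_le_left.trans hRM) (S.fixed_mem hMR hRM hcA hc1 hN hu ⟨hc.2.1, hc.2.2 u hu⟩)
  rw [commutatorElement_def]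
  have hdw : d * w = w * d := (Subgroup.mem_centralizer_iff.1 hd.2 w hw).symm
  have e : d * m * w * (d * m)⁻¹ * w⁻¹ = d * (m * (w * m⁻¹ * w⁻¹)) * d⁻¹ := by
    calc d * m * w * (d * m)⁻¹ * w⁻¹ = d * (m * (w * m⁻¹ * w⁻¹)) * (w * d⁻¹ * w⁻¹) := by group
      _ = _ := by rw [show w * d⁻¹ * w⁻¹ = d⁻¹ by rw [((Commute.inv_left hdw).eq).symm, mul_inv_cancel_right]]
  rw [e]
  exact (Subgroup.mem_normalizer_iff.1 (hRM hd.1) _).1
    (mul_mem hm ((Subgroup.mem_normalizer_iff.1 (hPM hw) _).1 (inv_mem hm)))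

end Reduced

end CfsgLib.FpfPQ
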