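import Mathlib
import Cfsg.Agent.FpfPQ.Setup
import Cfsg.Agent.ExtraFpf.Reduce

/-!
Weights: the vectors fixed by `M` on which `C` has no fixed part.
-/

set_option autoImplicit false

namespace CfsgLib.FpfPQ

open scoped commutatorElement
open CfsgLib.CoprimeAction
open scoped Pointwise

variable {Γ : Type*} [Group Γ] [Finite Γ] {r : ℕ} [Fact r.Prime] {U : Type*} [AddCommGroup U] [Module (ZMod r) U]

theorem rho_mul (ρ : Γ →* Module.End (ZMod r) U) (a b : Γ) (u : U) : ρ (a * b) u = ρ a (ρ b u) := by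
  rw [map_mul]; rfl

/-- The stabiliser of a vector. -/
def fixer (ρ : Γ →* Module.End (ZMod r) U) (u : U) : Subgroup Γ where
  carrier := {g | ρ g u = u}
  one_mem' := by show ρ 1 u = u; rw [map_one]; rfl
  mul_mem' := fun {a b} (ha : ρ a u = u) (hb : ρ b u = u) => show ρ (a * b) u = u by rw [rho_mul, hb, ha]
  inv_mem' := fun {a} (ha : ρ a u = u) => show ρ a⁻¹ u = u by
    conv_lhs => rw [← ha]
    rw [← rho_mul, inv_mul_cancel, map_one]; rfl

/-- The averaging sum over `C`. -/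
noncomputable def sumC (ρ : Γ →* Module.End (ZMod r) U) (C : Subgroup Γ) : Module.End (ZMod r) U :=
  ∑ᶠ c : C, ρ (c : Γ)

theorem sumC_apply (ρ : Γ →* Module.End (ZMod r) U) (C : Subgroup Γ) [Fintype C] (u : U) :
    sumC ρ C u = ∑ c : C, ρ (c : Γ) u := by
  rw [sumC, finsum_eq_sum_of_fintype, LinearMap.sum_apply]

/-- Vectors fixed by `M` in the kernel of the averaging over `C`. -/
noncomputable def wt (ρ : Γ →* Module.End (ZMod r) U) (M C : Subgroup Γ) : Submodule (ZMod r) U :=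
  (⨅ g : M, LinearMap.eqLocus (ρ (g : Γ)) LinearMap.id) ⊓ LinearMap.ker (sumC ρ C)

theorem mem_wt {ρ : Γ →* Module.End (ZMod r) U} {M C : Subgroup Γ} {u : U} :
    u ∈ wt ρ M C ↔ (∀ g ∈ M, ρ g u = u) ∧ sumC ρ C u = 0 := by
  simp [wt, Submodule.mem_iInf]

theorem sumC_conj (ρ : Γ →* Module.End (ZMod r) U) {C : Subgroup Γ} {g : Γ}
    (hg : g ∈ Subgroup.normalizer (C : Set Γ)) (u : U) : ρ g (sumC ρ C u) = sumC ρ C (ρ g u) := by
  haveI := Fintype.ofFinite C
  simp only [sumC_apply, map_sum]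
  refine Fintype.sum_equiv (C.normalizerMonoidHom ⟨g, hg⟩).toEquiv _ _ fun c => ?_
  show ρ g (ρ (c : Γ) u) = ρ (g * c * g⁻¹) (ρ g u)
  rw [← rho_mul, ← rho_mul, inv_mul_cancel_right]

/-- A vector fixed by `C` with vanishing average is zero. -/
theorem eq_zero_of_fixed {ρ : Γ →* Module.End (ZMod r) U} {C : Subgroup Γ} {u : U} {v : ℕ} (hv : v.Prime)
    (hvr : v ≠ r) (hC : IsPGroup v C) (h0 : sumC ρ C u = 0) (hfix : ∀ c ∈ C, ρ c u = u) : u = 0 := by
  haveI := Fintype.ofFinite C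
  haveI := Fact.mk hv
  rw [sumC_apply, Finset.sum_congr rfl fun (c : C) _ => hfix c c.2, Finset.sum_const,
    Finset.card_univ, ← Nat.card_eq_fintype_card] at h0
  refine CfsgLib.ExtraFpf.smul_eq_zero_imp (p := r) (fun hd => ?_) h0
  obtain ⟨k, hk⟩ := hC.exists_card_eq
  rw [hk] at hd
  exact hvr ((Nat.prime_dvd_prime_iff_eq (Fact.out : r.Prime) hv).1 ((Fact.out : r.Prime).dvd_of_dvd_pow hd)).symm

/-- Translation of weights. -/
theorem map_mem_wt {ρ : Γ →* Module.End (ZMod r) U} {M C : Subgroup Γ} {g : Γ}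
    (hgC : g ∈ Subgroup.normalizer (C : Set Γ)) {u : U} (hu : u ∈ wt ρ M C) :
    ρ g u ∈ wt ρ (MulAut.conj g • M) C := by
  rw [mem_wt] at hu ⊢
  refine ⟨fun b hb => ?_, by rw [← sumC_conj ρ hgC, hu.2, map_zero]⟩
  rw [mem_conj_smul] at hb
  rw [← rho_mul, show b * g = g * (g⁻¹ * b * g) by group, rho_mul, hu.1 _ hb]

theorem map_mem_wt' {ρ : Γ →* Module.End (ZMod r) U} {M C : Subgroup Γ} {g : Γ}
    (hgM : g ∈ Subgroup.normalizer (M : Set Γ)) (hgC : g ∈ Subgroup.normalizer (C : Set Γ)) {u : U}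
    (hu : u ∈ wt ρ M C) : ρ g u ∈ wt ρ M C := by
  have := map_mem_wt hgC hu
  rwa [map_conj_eq hgM] at this

/-- A moved vector gives a weight vector. -/
theorem exists_wt_ne_zero {ρ : Γ →* Module.End (ZMod r) U} {M C : Subgroup Γ} {v : ℕ} (hv : v.Prime)
    (hvr : v ≠ r) (hC : IsPGroup v C) (hCM : C ≤ Subgroup.normalizer (M : Set Γ))
    {a : Γ} (ha : a ∈ C) {w : U} (hw : ∀ g ∈ M, ρ g w = w) (haw : ρ a w ≠ w) :
    ∃ u ∈ wt ρ M C, u ≠ 0 := by
  haveI := Fintype.ofFinite C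
  haveI := Fact.mk hv
  have habs : ∀ c : C, ∀ z : U, ρ (c : Γ) (sumC ρ C z) = sumC ρ C z := by
    intro c z
    simp only [sumC_apply, map_sum]
    refine Fintype.sum_equiv (Equiv.mulLeft c) _ _ fun d => ?_
    show ρ (c : Γ) (ρ (d : Γ) z) = ρ ((c : Γ) * d) z
    rw [rho_mul]
  refine ⟨Fintype.card C • w - sumC ρ C w, mem_wt.2 ⟨fun g hg => ?_, ?_⟩, fun h => ?_⟩
  · rw [map_sub, map_nsmul, hw g hg, sumC_apply, map_sum]
    refine congrArg _ (Finset.sum_congr rfl fun c _ => ?_)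
    rw [← rho_mul, show g * (c : Γ) = c * ((c : Γ)⁻¹ * g * c) by group, rho_mul,
      hw _ ((Subgroup.mem_normalizer_iff''.1 (hCM c.2) g).1 hg)]
  · rw [map_sub, map_nsmul]
    rw [sumC_apply ρ C (sumC ρ C w), Finset.sum_congr rfl fun c _ => habs c w, Finset.sum_const,
      Finset.card_univ, sub_self]
  · rw [sub_eq_zero] at h
    have h1 : Fintype.card C • (ρ a w - w) = 0 := by
      rw [smul_sub, ← map_nsmul, h, habs ⟨a, ha⟩, sub_self]
    refine haw (sub_eq_zero.1 (CfsgLib.ExtraFpf.smul_eq_zero_imp (p := r) (fun hd => ?_) h1))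
    obtain ⟨k, hk⟩ := hC.exists_card_eq
    rw [← Nat.card_eq_fintype_card, hk] at hd
    exact hvr ((Nat.prime_dvd_prime_iff_eq (Fact.out : r.Prime) hv).1 ((Fact.out : r.Prime).dvd_of_dvd_pow hd)).symm

namespace Setup

variable {s t p q : ℕ} {ρ : Γ →* Module.End (ZMod r) U} {A P R : Subgroup Γ} {x y : Γ}

/-- A weight vector fixed by the stabiliser of a pure weight is zero. -/
theorem fix_stab_eq_zero (S : Setup s t p q ρ A P R x y) {M C : Subgroup Γ} (hMR : M ≤ R)
    (hRM : R ≤ Subgroup.normalizer (M : Set Γ)) (hRC : R ≤ Subgroup.normalizer (C : Set Γ))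
    (hAC : A ≤ Subgroup.normalizer (C : Set Γ))
    (hpure : ∀ g ∈ A, MulAut.conj g • M ≠ M → ∀ u ∈ wt ρ M C, (∀ b ∈ MulAut.conj g • M, ρ b u = u) → u = 0)
    {u : U} (hu : u ∈ wt ρ M C) (hfix : ∀ h ∈ A, h ∈ Subgroup.normalizer (M : Set Γ) → ρ h u = u) : u = 0 := by
  classical
  set H : Subgroup A := (Subgroup.normalizer (M : Set Γ)).comap A.subtype with hH
  haveI : Fintype (A ⧸ H) := Fintype.ofFinite _
  have hwd : ∀ a b : A, (a : A ⧸ H) = b → ρ (a : Γ) u = ρ (b : Γ) u := by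
    intro a b h
    have hm0 : a⁻¹ * b ∈ H := QuotientGroup.eq.1 h
    have hm : (a : Γ)⁻¹ * b ∈ Subgroup.normalizer (M : Set Γ) := hm0
    conv_rhs => rw [show (b : Γ) = a * ((a : Γ)⁻¹ * b) by group, rho_mul,
      hfix _ (mul_mem (inv_mem a.2) b.2) hm]
  let f : A ⧸ H → U := fun i => ρ ((i.out : A) : Γ) u
  have hf : ∀ a : A, f (a : A ⧸ H) = ρ (a : Γ) u := fun a => hwd _ _ (Quotient.out_eq _)
  have hsum : ∑ i, f i = 0 := by
    refine S.fixU _ fun a ha => ?_
    rw [map_sum]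
    refine Fintype.sum_equiv (MulAction.toPerm (⟨a, ha⟩ : A)) _ _ fun i => ?_
    obtain ⟨b, rfl⟩ := QuotientGroup.mk_surjective i
    show ρ a (f b) = f ((⟨a, ha⟩ * b : A) : A ⧸ H)
    rw [hf, hf, ← rho_mul]
    rfl
  have key : ∀ I : Finset (A ⧸ H), ∀ g : A ⧸ H → U,
      (∀ i ∈ I, g i ∈ wt ρ (MulAut.conj ((i.out : A) : Γ) • M) C) → ∑ i ∈ I, g i = 0 → ∀ i ∈ I, g i = 0 := by
    intro I
    induction I using Finset.induction_on with
    | empty => intro g _ _ i hi; simp at hi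
    | @insert j I hj ih =>
      intro g hg hs
      rw [Finset.sum_insert hj] at hs
      set Mj := MulAut.conj ((j.out : A) : Γ) • M with hMj
      have hMjR : Mj ≤ R := by
        intro b hb
        rw [hMj, mem_conj_smul] at hb
        have := (Subgroup.mem_normalizer_iff.1 (S.hAR (j.out).2) _).1 (hMR hb)
        simpa [mul_assoc] using this
      have hrest : ∀ i ∈ I, g i = 0 := by
        intro i hi
        set ai : Γ := ((i.out : A) : Γ) with hai
        have hfixi : ∀ b ∈ Mj, ρ b (g i) = g i := by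
          intro b hb
          refine sub_eq_zero.1 (ih (fun k => ρ b (g k) - g k) (fun k hk => ?_) ?_ i hi)
          · have hk' := hg k (Finset.mem_insert_of_mem hk)
            refine sub_mem (map_mem_wt' ?_ (hRC (hMjR hb)) hk') hk'
            refine mem_normalizer_of_forall fun e he => ?_
            rw [mem_conj_smul] at he ⊢
            set ak : Γ := ((k.out : A) : Γ)
            have hb' : ak⁻¹ * b * ak ∈ R := (Subgroup.mem_normalizer_iff''.1 (S.hAR (k.out).2) b).1 (hMjR hb)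
            have := (Subgroup.mem_normalizer_iff.1 (hRM hb') _).1 he
            simpa [mul_assoc] using this
          · rw [Finset.sum_sub_distrib, ← map_sum, eq_neg_of_add_eq_zero_right hs, map_neg,
              (mem_wt.1 (hg j (Finset.mem_insert_self j I))).1 b hb, sub_self]
        have hgi := hg i (Finset.mem_insert_of_mem hi)
        have hai' : ρ ai⁻¹ (g i) ∈ wt ρ M C := by
          have := map_mem_wt (hAC (inv_mem (i.out).2)) hgi
          rwa [smul_smul, ← map_mul, inv_mul_cancel, map_one, one_smul] at this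
        have hne : MulAut.conj (ai⁻¹ * ((j.out : A) : Γ)) • M ≠ M := by
          intro h
          have hmem : ai⁻¹ * ((j.out : A) : Γ) ∈ Subgroup.normalizer (M : Set Γ) :=
            mem_normalizer_of_forall fun e he => by rw [← h]; exact conj_mem_conj_smul he
          have : ((i.out : A) : A ⧸ H) = ((j.out : A) : A ⧸ H) := QuotientGroup.eq.2 hmem
          have hij : i = j := (Quotient.out_eq i).symm.trans (this.trans (Quotient.out_eq j))
          exact hj (hij ▸ hi)
        have h0 := hpure _ (mul_mem (inv_mem (i.out).2) (j.out).2) hne _ hai' (fun b hb => by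
          have hb' : ai * b * ai⁻¹ ∈ Mj := by
            rw [map_mul, mul_smul] at hb
            rw [mem_conj_smul, inv_inv] at hb
            exact hb
          rw [← rho_mul, show b * ai⁻¹ = ai⁻¹ * (ai * b * ai⁻¹) by group, rho_mul, hfixi _ hb'])
        rw [show g i = ρ ai (ρ ai⁻¹ (g i)) by rw [← rho_mul, mul_inv_cancel, map_one]; rfl, h0, map_zero]
      intro i hi
      rcases Finset.mem_insert.1 hi with rfl | hi
      · rwa [Finset.sum_eq_zero hrest, add_zero] at hs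
      · exact hrest i hi
  have h1 := key Finset.univ f (fun i _ => map_mem_wt (hAC (i.out).2) hu) hsum
    ((1 : A) : A ⧸ H) (Finset.mem_univ _)
  rwa [hf, OneMemClass.coe_one, map_one] at h1

/-- The action on the quotient by a faithful weight. -/
theorem exists_quotient_data (S : Setup s t p q ρ A P R x y) {M C : Subgroup Γ}
    (hRM : R ≤ Subgroup.normalizer (M : Set Γ)) (hRC : R ≤ Subgroup.normalizer (C : Set Γ))
    [(M.subgroupOf R).Normal]
    {c : Γ} (hcA : c ∈ A) (hcM : c ∈ Subgroup.normalizer (M : Set Γ)) (hcC : c ∈ Subgroup.normalizer (C : Set Γ))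
    {ℓ : ℕ} (hcℓ : c ^ ℓ = 1)
    (hfixc : ∀ u ∈ wt ρ M C, ρ c u = u → u = 0)
    (hfaith : ∀ g ∈ R, (∀ u ∈ wt ρ M C, ρ g u = u) → g ∈ M) :
    ∃ (σ : MulAut (R ⧸ M.subgroupOf R)) (ρU : (R ⧸ M.subgroupOf R) →* Module.End (ZMod r) (wt ρ M C))
      (X : Module.End (ZMod r) (wt ρ M C)),
      (∀ u : R, σ (QuotientGroup.mk u) =
        QuotientGroup.mk ⟨c * u * c⁻¹, (Subgroup.mem_normalizer_iff.1 (S.hAR hcA) _).1 u.2⟩) ∧
      σ ^ ℓ = 1 ∧ (∀ a, ρU a = 1 → a = 1) ∧ X ^ ℓ = 1 ∧ (∑ i ∈ Finset.range ℓ, X ^ i = 0) ∧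
      (∀ a, X * ρU a = ρU (σ a) * X) := by
  have hmemU : ∀ g ∈ R, ∀ u ∈ wt ρ M C, ρ g u ∈ wt ρ M C := fun g hg u hu => map_mem_wt' (hRM hg) (hRC hg) hu
  have hcU : ∀ u ∈ wt ρ M C, ρ c u ∈ wt ρ M C := fun u hu => map_mem_wt' hcM hcC hu
  let ρ0 : R →* Module.End (ZMod r) (wt ρ M C) :=
    { toFun := fun g => (ρ (g : Γ)).restrict (hmemU g g.2)
      map_one' := LinearMap.ext fun u => Subtype.ext (by simp [LinearMap.restrict_apply])
      map_mul' := fun g h => LinearMap.ext fun u => Subtype.ext (by simp [LinearMap.restrict_apply]) }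
  have hker : M.subgroupOf R ≤ ρ0.ker := fun g hg => by
    rw [MonoidHom.mem_ker]
    exact LinearMap.ext fun u => Subtype.ext ((mem_wt.1 u.2).1 _ hg)
  set α : MulAut R := R.normalizerMonoidHom ⟨c, S.hAR hcA⟩ with hα
  have hmap : (M.subgroupOf R).map α.toMonoidHom = M.subgroupOf R := by
    refine Subgroup.eq_of_le_of_card_ge ?_ (Subgroup.card_map_of_injective α.injective).ge
    rintro _ ⟨g, hg, rfl⟩
    exact (Subgroup.mem_normalizer_iff.1 hcM _).1 hg
  let σ : MulAut (R ⧸ M.subgroupOf R) := QuotientGroup.congr _ _ α hmap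
  have hσ : ∀ u : R, σ (QuotientGroup.mk u) = QuotientGroup.mk (α u) := fun u => rfl
  let X : Module.End (ZMod r) (wt ρ M C) := (ρ c).restrict hcU
  have hXi : ∀ (i : ℕ) (u : wt ρ M C), ((X ^ i) u : U) = ρ (c ^ i) u := by
    intro i
    induction i with
    | zero => intro u; simp
    | succ i ih =>
      intro u
      rw [pow_succ, Module.End.mul_apply, ih, pow_succ, rho_mul]
      rfl
  refine ⟨σ, QuotientGroup.lift _ ρ0 hker, X, fun u => rfl, ?_, ?_, ?_, ?_, ?_⟩
  · have hit : ∀ (i : ℕ) (u : R), (σ ^ i) (QuotientGroup.mk u) = QuotientGroup.mk ((α ^ i) u) := by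
      intro i
      induction i with
      | zero => intro u; rfl
      | succ i ih => intro u; rw [pow_succ, MulAut.mul_apply, hσ, ih, pow_succ, MulAut.mul_apply]
    refine MulEquiv.ext fun a => ?_
    obtain ⟨u, rfl⟩ := QuotientGroup.mk_surjective a
    rw [hit, hα, ← map_pow, show (⟨c, S.hAR hcA⟩ : Subgroup.normalizer (R : Set Γ)) ^ ℓ = 1 from Subtype.ext hcℓ,
      map_one]
    rfl
  · intro a ha
    obtain ⟨u, rfl⟩ := QuotientGroup.mk_surjective a
    refine (QuotientGroup.eq_one_iff u).2 (Subgroup.mem_subgroupOf.2 (hfaith _ u.2 fun w hw => ?_))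
    exact congrArg Subtype.val (LinearMap.congr_fun ha ⟨w, hw⟩)
  · exact LinearMap.ext fun u => Subtype.ext (by rw [hXi, hcℓ, map_one]; rfl)
  · refine LinearMap.ext fun u => ?_
    set w := (∑ i ∈ Finset.range ℓ, X ^ i) u with hw
    have hXw : X w = w := by
      rw [hw, ← Module.End.mul_apply]
      congr 1
      have e1 := Finset.sum_range_succ' (fun i => X ^ i) ℓ
      have hXℓ : X ^ ℓ = 1 := LinearMap.ext fun u => Subtype.ext (by rw [hXi, hcℓ, map_one]; rfl)
      rw [Finset.sum_range_succ, hXℓ, pow_zero] at e1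
      rw [Finset.mul_sum]
      simp only [← pow_succ']
      exact (add_right_cancel e1).symm
    exact Subtype.ext (hfixc _ w.2 (congrArg Subtype.val hXw))
  · intro a
    obtain ⟨u, rfl⟩ := QuotientGroup.mk_surjective a
    refine LinearMap.ext fun w => Subtype.ext ?_
    show ρ c (ρ (u : Γ) w) = ρ (c * (u : Γ) * c⁻¹) (ρ c w)
    rw [← rho_mul, ← rho_mul, inv_mul_cancel_right]

end Setup

end CfsgLib.FpfPQ
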