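import Mathlib
import Cfsg.Agent.FpfPQ.Weight
import Cfsg.Agent.FpfPQ.Exceptional
import Cfsg.Agent.FpfPQ.Form

/-!
The case of a non-abelian `R`.
-/

set_option autoImplicit false

namespace CfsgLib.FpfPQ

open scoped commutatorElement
open CfsgLib.CoprimeAction
open scoped Pointwise

/-- The action induced on a quotient by an invariant normal subgroup. -/
def quotAut {S G : Type*} [Group S] [Group G] (N : Subgroup G) [N.Normal] (f : S →* MulAut G)
    (h : ∀ g, N.map (f g).toMonoidHom = N) : S →* MulAut (G ⧸ N) where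
  toFun g := QuotientGroup.congr N N (f g) (h g)
  map_one' := MulEquiv.ext fun a => by
    obtain ⟨u, rfl⟩ := QuotientGroup.mk_surjective a
    show ((f 1 u : G) : G ⧸ N) = (u : G ⧸ N)
    rw [map_one]; rfl
  map_mul' g k := MulEquiv.ext fun a => by
    obtain ⟨u, rfl⟩ := QuotientGroup.mk_surjective a
    show ((f (g * k) u : G) : G ⧸ N) = ((f g (f k u) : G) : G ⧸ N)
    rw [map_mul]; rfl

theorem quotAut_mk {S G : Type*} [Group S] [Group G] (N : Subgroup G) [N.Normal] (f : S →* MulAut G)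
    (h : ∀ g, N.map (f g).toMonoidHom = N) (g : S) (u : G) :
    quotAut N f h g (u : G ⧸ N) = ((f g u : G) : G ⧸ N) := rfl

variable {Γ : Type*} [Group Γ] [Finite Γ] {r : ℕ} [Fact r.Prime] {U : Type*} [AddCommGroup U] [Module (ZMod r) U]

namespace Reduced

variable {s t p q : ℕ} {ρ : Γ →* Module.End (ZMod r) U} {A P R : Subgroup Γ} {x y : Γ}

theorem false_of_nonabelian [Finite U] (S : Reduced s t p q ρ A P R x y)
    (hnab : ¬ ∀ u ∈ R, ∀ v ∈ R, Commute u v) : False := by
  classical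
  haveI := Fact.mk S.hs
  haveI := Fact.mk S.ht
  set C : Subgroup Γ := (commutator R).map R.subtype with hC
  have hCR : C ≤ R := Subgroup.map_subtype_le _
  have hcenR : commutator R ≤ Subgroup.center R := by
    rw [commutator_def, Subgroup.commutator_le]
    exact fun u _ v _ => Subgroup.mem_center_iff.2 fun w => Subtype.ext (by
      show (w : Γ) * ((⁅u, v⁆ : R) : Γ) = ((⁅u, v⁆ : R) : Γ) * w
      rw [show ((⁅u, v⁆ : R) : Γ) = ⁅(u : Γ), (v : Γ)⁆ from map_commutatorElement R.subtype u v]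
      exact (S.class_two u.2 v.2 w.2).eq.symm)
  have hcen2 : ∀ u v : R, ⁅u, v⁆ ∈ Subgroup.center R := fun u v =>
    hcenR (Subgroup.commutator_mem_commutator (Subgroup.mem_top _) (Subgroup.mem_top _))
  have hCcen : ∀ z ∈ C, ∀ u ∈ R, Commute z u := by
    rintro _ ⟨z, hz, rfl⟩ u hu
    exact (congrArg Subtype.val (Subgroup.mem_center_iff.1 (hcenR hz) ⟨u, hu⟩)).symm
  have hCP : ∀ z ∈ C, ∀ w ∈ P, Commute z w := by
    rintro _ ⟨z, hz, rfl⟩ w hw
    exact (Subgroup.mem_centralizer_iff.1 (S.hfrat ⟨z, commutator_le_frattini' S.hR hz, rfl⟩) w hw).symm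
  have hRC : R ≤ Subgroup.normalizer (C : Set Γ) := fun u hu =>
    mem_normalizer_of_forall fun z hz => by rw [← (hCcen z hz u hu).eq, mul_inv_cancel_right]; exact hz
  have hnormC : ∀ g ∈ Subgroup.normalizer (R : Set Γ), g ∈ Subgroup.normalizer (C : Set Γ) := fun g hg => by
    refine mem_normalizer_of_forall ?_
    rintro _ ⟨v, hv, rfl⟩
    exact ⟨R.normalizerMonoidHom ⟨g, hg⟩ v, Subgroup.characteristic_iff_map_le.1
      (inferInstance : (commutator R).Characteristic) _ ⟨v, hv, rfl⟩, rfl⟩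
  have hAC : A ≤ Subgroup.normalizer (C : Set Γ) := fun g hg => hnormC g (S.hAR hg)
  have hPC : P ≤ Subgroup.normalizer (C : Set Γ) := fun g hg => hnormC g (S.hPR hg)
  have hCp : IsPGroup s C := S.hR.to_le hCR
  -- a hyperplane of the derived group with a moved fixed vector
  have hexp : ∀ c ∈ commutator R, c ^ s = 1 := by
    let F : Subgroup R :=
      { carrier := {c | c ∈ Subgroup.center R ∧ c ^ s = 1}
        one_mem' := ⟨one_mem _, one_pow s⟩
        mul_mem' := fun {u v} hu hv => ⟨mul_mem hu.1 hv.1, by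
          rw [Commute.mul_pow (Subgroup.mem_center_iff.1 hv.1 u), hu.2, hv.2, one_mul]⟩
        inv_mem' := fun {u} hu => ⟨inv_mem hu.1, by rw [inv_pow, hu.2, inv_one]⟩ }
    have hF : commutator R ≤ F := by
      rw [commutator_def, Subgroup.commutator_le]
      intro u _ v _
      refine ⟨hcen2 u v, ?_⟩
      rw [← CfsgLib.PCore.commutatorElement_pow_left_of_class_two hcen2, commutatorElement_eq_one_iff_mul_comm]
      exact Subtype.ext (S.cent_central (pow_mem u.2 s) (S.pow_mem_cent u.2) v v.2).eq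
    exact fun c hc => (hF hc).2
  obtain ⟨K, hKC, a, haC, haK, hCK, w, hwK, haw⟩ := CfsgLib.ExtraFpf.exists_cocyclic (p := r) (q := s) (V := U)
    S.hsr.symm (commutator R) hcenR hexp (ρ.comp R.subtype) (by
      by_contra hcon
      push Not at hcon
      refine hnab fun u hu v hv => ?_
      have h1 : ⁅(⟨u, hu⟩ : R), (⟨v, hv⟩ : R)⁆ = 1 := Subtype.ext (S.faith _ (SetLike.coe_mem _)
        (hcon _ (Subgroup.commutator_mem_commutator (Subgroup.mem_top _) (Subgroup.mem_top _))))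
      exact congrArg Subtype.val (commutatorElement_eq_one_iff_mul_comm.1 h1))
  haveI : K.Normal := ⟨fun k hk g => by
    rw [Subgroup.mem_center_iff.1 (hcenR (hKC hk)) g, mul_inv_cancel_right]; exact hk⟩
  set Kg := K.map R.subtype with hKg
  have hKgC : Kg ≤ C := Subgroup.map_mono hKC
  have haCg : (a : Γ) ∈ C := ⟨a, haC, rfl⟩
  have hCdec : ∀ z ∈ C, ∃ k ∈ Kg, ∃ i : ℤ, z = k * (a : Γ) ^ i := by
    rintro _ ⟨z, hz, rfl⟩
    rw [hCK] at hz
    obtain ⟨k, hk, e, he, rfl⟩ := Subgroup.mem_sup_of_normal_left.1 hz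
    obtain ⟨i, rfl⟩ := Subgroup.mem_zpowers_iff.1 he
    exact ⟨k, ⟨k, hk, rfl⟩, i, by simp⟩
  have haord : orderOf (a : Γ) = s := by
    rw [Subgroup.orderOf_coe]
    exact orderOf_eq_prime (hexp a haC) fun h => haK (h ▸ one_mem K)
  have hnormKg : ∀ g, (∀ z ∈ C, Commute z g) → g ∈ Subgroup.normalizer (Kg : Set Γ) := fun g hg =>
    mem_normalizer_of_forall fun z hz => by rw [← (hg z (hKgC hz)).eq, mul_inv_cancel_right]; exact hz
  -- a maximal weight
  obtain ⟨M, ⟨hMR, hRM, hPM, hKM, v0, hv0, hav0⟩, hmax⟩ := Set.Finite.exists_maximal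
    (s := {M : Subgroup Γ | M ≤ R ∧ R ≤ Subgroup.normalizer (M : Set Γ) ∧ P ≤ Subgroup.normalizer (M : Set Γ) ∧
      Kg ≤ M ∧ ∃ v : U, (∀ g ∈ M, ρ g v = v) ∧ ρ (a : Γ) v ≠ v}) (Set.toFinite _)
    ⟨Kg, hKgC.trans hCR, fun u hu => hnormKg u fun z hz => hCcen z hz u hu,
      fun u hu => hnormKg u fun z hz => hCP z hz u hu, le_rfl, w,
      by rintro _ ⟨k, hk, rfl⟩; exact hwK k hk, haw⟩
  have hCfix : ∀ u : U, (∀ g ∈ Kg, ρ g u = u) → ρ (a : Γ) u = u → ∀ z ∈ C, ρ z u = u := by
    intro u h1 h2 z hz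
    obtain ⟨k, hk, i, rfl⟩ := hCdec z hz
    exact (fixer ρ u).mul_mem (h1 k hk) ((fixer ρ u).zpow_mem h2 i)
  have hbig : ∀ M' : Subgroup Γ, M' ≤ R → R ≤ Subgroup.normalizer (M' : Set Γ) →
      P ≤ Subgroup.normalizer (M' : Set Γ) → M ≤ M' → ¬ M' ≤ M → ∀ u ∈ wt ρ M C,
      (∀ g ∈ M', ρ g u = u) → u = 0 := by
    intro M' h1 h2 h3 h4 h5 u hu hfix
    refine eq_zero_of_fixed S.hs S.hsr hCp (mem_wt.1 hu).2 (hCfix u (fun g hg => hfix g (h4 (hKM hg))) ?_)
    by_contra hau
    exact h5 (hmax (y := M') ⟨h1, h2, h3, hKM.trans h4, u, hfix, hau⟩ h4)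
  have haM : (a : Γ) ∉ M := fun h => hav0 (hv0 _ h)
  have hMne : M ≠ R := fun h => haM (h ▸ a.2)
  have hzM : ∀ i : ℤ, (a : Γ) ^ i ∈ M → (a : Γ) ^ i = 1 := by
    intro i hi
    by_contra hne
    refine haM (Subgroup.zpowers_le.2 hi ?_)
    have hmem : (a : Γ) ^ i ∈ Subgroup.zpowers (a : Γ) := Subgroup.zpow_mem_zpowers _ i
    have : Subgroup.zpowers ((a : Γ) ^ i) = Subgroup.zpowers (a : Γ) := by
      refine Subgroup.eq_of_le_of_card_ge (Subgroup.zpowers_le.2 hmem) ?_
      rw [Nat.card_zpowers, Nat.card_zpowers, haord]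
      refine ((S.hs.eq_one_or_self_of_dvd _ ?_).resolve_left fun e => hne (orderOf_eq_one_iff.1 e)).ge
      rw [← haord, ← Nat.card_zpowers (a : Γ)]
      exact Subgroup.orderOf_dvd_natCard _ hmem
    exact this.ge (Subgroup.mem_zpowers _)
  have hMuniq : ∀ g : Γ, ∀ i j : ℤ, g * ((a : Γ) ^ i)⁻¹ ∈ M → g * ((a : Γ) ^ j)⁻¹ ∈ M →
      (a : Γ) ^ i = (a : Γ) ^ j := by
    intro g i j h1 h2
    have h3 : (a : Γ) ^ (i - j) ∈ M := by
      have := mul_mem (inv_mem h1) h2
      rwa [mul_inv_rev, inv_inv, mul_assoc, inv_mul_cancel_left, ← zpow_neg, ← zpow_add, ← sub_eq_add_neg] at this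
    have := hzM _ h3
    rwa [zpow_sub, mul_inv_eq_one] at this
  have hfaith : ∀ g ∈ R, (∀ u ∈ wt ρ M C, ρ g u = u) → g ∈ M := by
    let M' : Subgroup Γ := R ⊓ ⨅ u : wt ρ M C, fixer ρ (u : U)
    have hmem : ∀ g, g ∈ M' ↔ g ∈ R ∧ ∀ u ∈ wt ρ M C, ρ g u = u := fun g => by
      simp [M', Subgroup.mem_iInf, fixer]
    have hnorm : ∀ g, g ∈ Subgroup.normalizer (R : Set Γ) → g ∈ Subgroup.normalizer (M : Set Γ) →
        g ∈ Subgroup.normalizer (M' : Set Γ) := by
      intro g hgR hgM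
      refine mem_normalizer_of_forall fun z hz => ?_
      rw [hmem] at hz ⊢
      refine ⟨(Subgroup.mem_normalizer_iff.1 hgR _).1 hz.1, fun u hu => ?_⟩
      rw [rho_mul, rho_mul, hz.2 _ (map_mem_wt' (inv_mem hgM) (inv_mem (hnormC g hgR)) hu), ← rho_mul,
        mul_inv_cancel, map_one]
      rfl
    intro g hg hfix
    by_contra hgM
    obtain ⟨u, hu, hu0⟩ := exists_wt_ne_zero S.hs S.hsr hCp (hCR.trans hRM) haCg hv0 hav0
    exact hu0 (hbig M' inf_le_left (fun z hz => hnorm z (Subgroup.le_normalizer hz) (hRM hz))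
      (fun z hz => hnorm z (S.hPR hz) (hPM hz))
      (fun z hz => (hmem z).2 ⟨hMR hz, fun u hu => (mem_wt.1 hu).1 z hz⟩)
      (fun h => hgM (h ((hmem g).2 ⟨hg, hfix⟩))) u hu (fun z hz => ((hmem z).1 hz).2 u hu))
  have hconjR : ∀ g ∈ A, MulAut.conj g • M ≤ R := fun g hg z hz => by
    rw [mem_conj_smul] at hz
    have := (Subgroup.mem_normalizer_iff.1 (S.hAR hg) _).1 (hMR hz)
    simpa [mul_assoc] using this
  have hconjN : ∀ g ∈ A, ∀ T : Subgroup Γ, A ≤ Subgroup.normalizer (T : Set Γ) →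
      T ≤ Subgroup.normalizer (M : Set Γ) →
      T ≤ Subgroup.normalizer ((MulAut.conj g • M : Subgroup Γ) : Set Γ) := by
    intro g hg T hAT hTM u hu
    refine mem_normalizer_of_forall fun z hz => ?_
    rw [mem_conj_smul] at hz ⊢
    have := (Subgroup.mem_normalizer_iff.1 (hTM ((Subgroup.mem_normalizer_iff''.1 (hAT hg) u).1 hu)) _).1 hz
    simpa [mul_assoc] using this
  have hpure : ∀ g ∈ A, MulAut.conj g • M ≠ M → ∀ u ∈ wt ρ M C,
      (∀ b ∈ MulAut.conj g • M, ρ b u = u) → u = 0 := by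
    intro g hg hne u hu hfix
    refine hbig (M ⊔ MulAut.conj g • M) (sup_le hMR (hconjR g hg)) ?_ ?_ le_sup_left (fun h => hne ?_) u hu
      (fun z hz => (sup_le (c := fixer ρ u) (fun e he => (mem_wt.1 hu).1 e he) hfix) hz)
    · exact fun e he => Subgroup.normalizer_inf_normalizer_le_normalizer_sup _ _ ⟨hRM he, hconjN g hg R S.hAR hRM he⟩
    · exact fun e he => Subgroup.normalizer_inf_normalizer_le_normalizer_sup _ _ ⟨hPM he, hconjN g hg P S.hAP hPM he⟩
    · exact Subgroup.eq_of_le_of_card_ge (le_sup_right.trans h) (card_conj_smul g M).ge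
  obtain ⟨u0, hu0, hu00⟩ := exists_wt_ne_zero S.hs S.hsr hCp (hCR.trans hRM) haCg hv0 hav0
  -- an operator of prime order without fixed points on the weight
  obtain ⟨c, hcA, hc1, hcM, hfixc⟩ : ∃ c ∈ A, c ≠ 1 ∧ c ∈ Subgroup.normalizer (M : Set Γ) ∧
      ∀ u ∈ wt ρ M C, ρ c u = u → u = 0 := by
    rcases S.ops.subgroup_cases (H := A ⊓ Subgroup.normalizer (M : Set Γ)) inf_le_left with h | ⟨hxH, hyH, hAH⟩ |
      ⟨c, hcA, hc1, hH⟩
    · exact absurd (S.toSetup.fix_stab_eq_zero hMR hRM hRC hAC hpure hu0 fun g hg hgM => by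
        have : g = 1 := Subgroup.mem_bot.1 (h ▸ ⟨hg, hgM⟩)
        rw [this, map_one]; rfl) hu00
    · refine ⟨x, S.ops.hx, S.ops.x_ne_one, hxH.2, ?_⟩
      have hAM : A ≤ Subgroup.normalizer (M : Set Γ) := hAH.trans inf_le_right
      let Cong : Γ → ℤ → Prop := fun g i => g * (a : Γ) * g⁻¹ * ((a : Γ) ^ i)⁻¹ ∈ M
      have hex : ∀ g ∈ A, ∃ i, Cong g i := by
        intro g hg
        obtain ⟨k, hk, i, hki⟩ := hCdec _ ((Subgroup.mem_normalizer_iff.1 (hAC hg) _).1 haCg)
        exact ⟨i, by show g * (a : Γ) * g⁻¹ * _ ∈ M; rw [hki, mul_inv_cancel_right]; exact hKM hk⟩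
      have hcomp : ∀ g ∈ A, ∀ (i : ℤ), Cong g i → ∀ h, ∀ j : ℤ, Cong h j → Cong (g * h) (i * j) := by
        intro g hg i hi h j hj
        set m := g * (a : Γ) * g⁻¹ * ((a : Γ) ^ i)⁻¹ with hm
        set m' := h * (a : Γ) * h⁻¹ * ((a : Γ) ^ j)⁻¹ with hm'
        have hma : Commute m (a : Γ) := (hCcen _ haCg m (hMR hi)).symm
        have e1 : g * (a : Γ) ^ j * g⁻¹ = m ^ j * (a : Γ) ^ (i * j) := by
          rw [← conj_zpow, show g * (a : Γ) * g⁻¹ = m * (a : Γ) ^ i by rw [hm, inv_mul_cancel_right],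
            ((hma.zpow_right i)).mul_zpow, ← zpow_mul]
        show g * h * (a : Γ) * (g * h)⁻¹ * _ ∈ M
        rw [show g * h * (a : Γ) * (g * h)⁻¹ = (g * m' * g⁻¹) * (g * (a : Γ) ^ j * g⁻¹) by rw [hm']; group, e1,
          ← mul_assoc, mul_inv_cancel_right]
        exact mul_mem ((Subgroup.mem_normalizer_iff.1 (hAM hg) _).1 hj) (M.zpow_mem hi j)
      have hone : Cong 1 1 := by show 1 * (a : Γ) * 1⁻¹ * _ ∈ M; simp
      have hinv : ∀ g ∈ A, ∀ i j, Cong g i → Cong g⁻¹ j → (a : Γ) ^ (i * j) = a := fun g hg i j hi hj => by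
        have h := hcomp g hg i hi _ j hj
        rw [mul_inv_cancel] at h
        have := hMuniq _ (i * j) 1 h hone
        rwa [zpow_one] at this
      obtain ⟨i, hi⟩ := hex x S.ops.hx
      obtain ⟨i', hi'⟩ := hex _ (inv_mem S.ops.hx)
      obtain ⟨j, hj⟩ := hex y S.ops.hy
      obtain ⟨j', hj'⟩ := hex _ (inv_mem S.ops.hy)
      have hxa : x ∈ coStab M (a : Γ) := by
        refine S.ops.mem_of_commutator_mem ⟨?_, ?_⟩
        · exact mul_mem (mul_mem (mul_mem (hAM S.ops.hy) (hAM S.ops.hx)) (inv_mem (hAM S.ops.hy))) (inv_mem (hAM S.ops.hx))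
        · have h := hcomp _ (mul_mem (mul_mem S.ops.hy S.ops.hx) (inv_mem S.ops.hy)) _
            (hcomp _ (mul_mem S.ops.hy S.ops.hx) _ (hcomp _ S.ops.hy _ hj _ _ hi) _ _ hj') _ _ hi'
          have e : (a : Γ) ^ (j * i * j' * i') = a := by
            rw [show j * i * j' * i' = (j * j') * (i * i') by ring, zpow_mul, hinv y S.ops.hy j j' hj hj',
              hinv x S.ops.hx i i' hi hi']
          have h' : y * x * y⁻¹ * x⁻¹ * (a : Γ) * (y * x * y⁻¹ * x⁻¹)⁻¹ * ((a : Γ) ^ (j * i * j' * i'))⁻¹ ∈ M := h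
          rwa [e] at h'
      obtain ⟨n, hn, hxn⟩ := S.toSetup.exists_fixed_rep S.ops.hx hMR hxa
      have hjne : (a : Γ) ^ j ≠ a := by
        intro h
        have hya : y ∈ coStab M (a : Γ) := ⟨hAM S.ops.hy, by
          have h' : y * (a : Γ) * y⁻¹ * ((a : Γ) ^ j)⁻¹ ∈ M := hj
          rwa [h] at h'⟩
        have hle : A ≤ coStab M (a : Γ) := by
          rw [← S.ops.sup_eq S.ops.hy S.ops.hx S.ops.x_ne_one S.ops.y_not_mem]
          exact sup_le (Subgroup.zpowers_le.2 hxa) (Subgroup.zpowers_le.2 hya)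
        obtain ⟨m, hm, hmc⟩ := exists_mem_centralizer (A := A) (N := M) (k := (a : Γ)) hAM
          (S.coprime_AR.coprime_dvd_right (Subgroup.card_dvd_of_le hMR)) (Or.inl S.ops.solv)
          (fun g hg => (hle hg).2)
        have := S.fixR _ (mul_mem (hMR hm) a.2) fun g hg => Subgroup.mem_centralizer_iff.1 hmc g hg
        exact haM (by rw [eq_inv_of_mul_eq_one_right this]; exact inv_mem hm)
      intro u hu hxu
      let U0 : Submodule (ZMod r) U := wt ρ M C ⊓ LinearMap.eqLocus (ρ x) LinearMap.id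
      have hU0 : ∀ v, v ∈ U0 ↔ v ∈ wt ρ M C ∧ ρ x v = v := fun v => by simp [U0]
      set E := Subgroup.zpowers (a : Γ) with hE
      have hER : E ≤ R := Subgroup.zpowers_le.2 a.2
      have hEU : ∀ e ∈ E, ∀ v ∈ U0, ρ e v ∈ U0 := by
        intro e he v hv
        obtain ⟨k, rfl⟩ := Subgroup.mem_zpowers_iff.1 he
        rw [hU0] at hv ⊢
        refine ⟨map_mem_wt' (hRM (zpow_mem a.2 k)) (hRC (zpow_mem a.2 k)) hv.1, ?_⟩
        have hna : Commute n (n * (a : Γ)) := (Commute.refl n).mul_right (hCcen _ haCg n (hMR hn)).symm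
        have e1 : (a : Γ) ^ k = (n * (a : Γ)) ^ k * n ^ (-k) := by
          conv_lhs => rw [show (a : Γ) = n⁻¹ * (n * (a : Γ)) by group]
          rw [(hna.inv_left).mul_zpow, inv_zpow', ((hna.zpow_zpow (-k) k)).eq]
        have h1 : ρ (n ^ (-k)) v = v := (mem_wt.1 hv.1).1 _ (M.zpow_mem hn _)
        rw [e1, rho_mul, h1, ← rho_mul, (hxn.zpow_right k).eq, rho_mul, hv.2]
      let ρ0 : E →* Module.End (ZMod r) U0 :=
        { toFun := fun e => (ρ (e : Γ)).restrict (hEU e e.2)
          map_one' := LinearMap.ext fun v => Subtype.ext (by simp [LinearMap.restrict_apply])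
          map_mul' := fun e f => LinearMap.ext fun v => Subtype.ext (by simp [LinearMap.restrict_apply]) }
      have hEpow : ∀ (e : E) (k : ℤ), ((a : Γ) ^ k = a) → (e : Γ) ^ k = e := by
        rintro ⟨_, he⟩ k hk
        obtain ⟨l, rfl⟩ := Subgroup.mem_zpowers_iff.1 he
        show ((a : Γ) ^ l) ^ k = (a : Γ) ^ l
        rw [← zpow_mul, mul_comm, zpow_mul, hk]
      letI : CommGroup E := IsCyclic.commGroup
      have hjj : (a : Γ) ^ (j * j') = a := hinv y S.ops.hy j j' hj hj'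
      let σ : MulAut E :=
        { toFun := fun e => e ^ j
          invFun := fun e => e ^ j'
          left_inv := fun e => Subtype.ext (by
            show ((e : Γ) ^ j) ^ j' = e
            rw [← zpow_mul]; exact hEpow e _ hjj)
          right_inv := fun e => Subtype.ext (by
            show ((e : Γ) ^ j') ^ j = e
            rw [← zpow_mul, mul_comm]; exact hEpow e _ hjj)
          map_mul' := fun e f => mul_zpow e f j }
      have hσi : ∀ (k : ℕ) (e : E), (((σ ^ k) e : E) : Γ) = (e : Γ) ^ (j ^ k) := by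
        intro k
        induction k with
        | zero => intro e; simp
        | succ k ih =>
          intro e
          rw [pow_succ, MulAut.mul_apply, ih, pow_succ', zpow_mul]
          rfl
      have hjq : (a : Γ) ^ (j ^ q) = a := by
        have hk : ∀ k : ℕ, Cong (y ^ k) (j ^ k) := by
          intro k
          induction k with
          | zero => simpa using hone
          | succ k ih => rw [pow_succ, pow_succ]; exact hcomp _ (pow_mem S.ops.hy k) _ ih _ _ hj
        have h := hk q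
        rw [← S.ops.oy, pow_orderOf_eq_one] at h
        have := hMuniq _ _ 1 h hone
        rwa [zpow_one, S.ops.oy] at this
      haveI := Fact.mk S.ops.hq
      have hyU : ∀ v ∈ U0, ρ y v ∈ U0 := by
        intro v hv
        rw [hU0] at hv ⊢
        refine ⟨map_mem_wt' (hAM S.ops.hy) (hAC S.ops.hy) hv.1, ?_⟩
        rw [← rho_mul, show x * y = y * (y⁻¹ * x * y) by group, rho_mul]
        congr 1
        have hx' : y⁻¹ * x * y ∈ Subgroup.zpowers x :=
          (Subgroup.mem_normalizer_iff''.1 (S.ops.norm S.ops.hy) x).1 (Subgroup.mem_zpowers x)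
        exact (Subgroup.zpowers_le.2 (show x ∈ fixer ρ v from hv.2) hx' : _ ∈ fixer ρ v)
      let X : Module.End (ZMod r) U0 := (ρ y).restrict hyU
      have hXi : ∀ (k : ℕ) (v : U0), ((X ^ k) v : U) = ρ (y ^ k) v := by
        intro k
        induction k with
        | zero => intro v; simp
        | succ k ih => intro v; rw [pow_succ, Module.End.mul_apply, ih, pow_succ, rho_mul]; rfl
      have hX0 : ∑ k ∈ Finset.range q, X ^ k = 0 := by
        refine LinearMap.ext fun v => ?_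
        set z := (∑ k ∈ Finset.range q, X ^ k) v with hz
        have hXℓ : X ^ q = 1 := LinearMap.ext fun v => Subtype.ext (by
          rw [hXi, ← S.ops.oy, pow_orderOf_eq_one, map_one]; rfl)
        have hXz : X z = z := by
          rw [hz, ← Module.End.mul_apply]
          congr 1
          have e1 := Finset.sum_range_succ' (fun k => X ^ k) q
          rw [Finset.sum_range_succ, hXℓ, pow_zero] at e1
          rw [Finset.mul_sum]
          simp only [← pow_succ']
          exact (add_right_cancel e1).symm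
        refine Subtype.ext (S.fixU _ fun g hg => ?_)
        have hle : A ≤ fixer ρ (z : U) := by
          rw [← S.ops.sup_eq S.ops.hy S.ops.hx S.ops.x_ne_one S.ops.y_not_mem]
          exact sup_le (Subgroup.zpowers_le.2 ((hU0 _).1 z.2).2) (Subgroup.zpowers_le.2 (congrArg Subtype.val hXz))
        exact hle hg
      have htriv := CfsgLib.ExtraFpf.trivial_of_fpf (E := E) S.ops.hq S.hsr.symm (S.hR.to_le hER) ρ0 (σ := σ)
        (MulEquiv.ext fun e => Subtype.ext (by rw [hσi]; exact hEpow e _ hjq))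
        (fun e he => by
          by_contra hne
          obtain ⟨l, hl⟩ := Subgroup.mem_zpowers_iff.1 (e.2 : (e : Γ) ∈ Subgroup.zpowers (a : Γ))
          have hgen : Subgroup.zpowers (e : Γ) = E := by
            refine Subgroup.eq_of_le_of_card_ge (Subgroup.zpowers_le.2 e.2) ?_
            show Nat.card (Subgroup.zpowers (a : Γ)) ≤ _
            rw [Nat.card_zpowers, Nat.card_zpowers, haord]
            refine ((S.hs.eq_one_or_self_of_dvd _ ?_).resolve_left fun h => hne (Subtype.ext (orderOf_eq_one_iff.1 h))).ge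
            rw [← haord, ← Nat.card_zpowers (a : Γ)]
            exact Subgroup.orderOf_dvd_natCard _ e.2
          obtain ⟨m, hm⟩ := Subgroup.mem_zpowers_iff.1 (hgen.ge (Subgroup.mem_zpowers (a : Γ)))
          refine hjne ?_
          have he' : (e : Γ) ^ j = e := congrArg Subtype.val he
          rw [← hm, ← zpow_mul, mul_comm, zpow_mul, he'])
        X hX0
        (fun e => by
          obtain ⟨l, hl⟩ := Subgroup.mem_zpowers_iff.1 (e.2 : (e : Γ) ∈ Subgroup.zpowers (a : Γ))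
          refine LinearMap.ext fun v => Subtype.ext ?_
          show ρ y (ρ (e : Γ) v) = ρ ((e : Γ) ^ j) (ρ y v)
          have h' : y * (a : Γ) * y⁻¹ * ((a : Γ) ^ j)⁻¹ ∈ M := hj
          set m := y * (a : Γ) * y⁻¹ * ((a : Γ) ^ j)⁻¹ with hm
          have hma : Commute m (a : Γ) := (hCcen _ haCg m (hMR h')).symm
          have e1 : y * (e : Γ) * y⁻¹ = m ^ l * (e : Γ) ^ j := by
            rw [← hl, ← conj_zpow, show y * (a : Γ) * y⁻¹ = m * (a : Γ) ^ j by rw [hm, inv_mul_cancel_right],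
              (hma.zpow_right j).mul_zpow, ← zpow_mul, ← zpow_mul, mul_comm j l]
          rw [← rho_mul, show y * (e : Γ) = (y * (e : Γ) * y⁻¹) * y by group, e1, rho_mul, rho_mul]
          exact (mem_wt.1 ((hU0 _).1 (hEU _ (E.zpow_mem e.2 j) _ (hyU _ v.2))).1).1 _ (M.zpow_mem h' l))
        ⟨a, Subgroup.mem_zpowers _⟩
      have hau : ρ (a : Γ) u = u := congrArg Subtype.val (LinearMap.congr_fun htriv ⟨u, (hU0 u).2 ⟨hu, hxu⟩⟩)
      exact eq_zero_of_fixed S.hs S.hsr hCp (mem_wt.1 hu).2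
        (hCfix u (fun g hg => (mem_wt.1 hu).1 g (hKM hg)) hau)
    · have hc : c ∈ A ⊓ Subgroup.normalizer (M : Set Γ) := hH ▸ Subgroup.mem_zpowers c
      refine ⟨c, hcA, hc1, hc.2, fun u hu hcu => S.toSetup.fix_stab_eq_zero hMR hRM hRC hAC hpure hu
        fun g hg hgM => ?_⟩
      have : g ∈ Subgroup.zpowers c := hH ▸ ⟨hg, hgM⟩
      exact (Subgroup.zpowers_le.2 (show c ∈ fixer ρ u from hcu) this : g ∈ fixer ρ u)
  set ℓ := orderOf c with hℓdef
  have hℓ : ℓ.Prime := S.ops.prime_orderOf hcA hc1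
  have hℓne : s ≠ ℓ ∧ t ≠ ℓ ∧ r ≠ ℓ := by
    rcases S.ops.orderOf_cases hcA hc1 with h | h <;> rw [hℓdef, h]
    · exact ⟨S.hps.symm, S.hpt.symm, S.hpr.symm⟩
    · exact ⟨S.hqs.symm, S.hqt.symm, S.hqr.symm⟩
  haveI hMn : (M.subgroupOf R).Normal := (Subgroup.normal_subgroupOf_iff_le_normalizer hMR).2 hRM
  obtain ⟨σ, ρU, X, hσ, hσℓ, hρU, hXℓ, hX0, hXρ⟩ := S.toSetup.exists_quotient_data hRM hRC hcA hcM (hAC hcA)
    (pow_orderOf_eq_one c) hfixc hfaith
  set mk := QuotientGroup.mk' (M.subgroupOf R) with hmk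
  have hmks : Function.Surjective mk := QuotientGroup.mk'_surjective _
  have hQ : IsPGroup s (R ⧸ M.subgroupOf R) := S.hR.to_quotient _
  have hcommQ : ∀ u v : R ⧸ M.subgroupOf R, ⁅u, v⁆ ∈ Subgroup.center (R ⧸ M.subgroupOf R) := by
    intro u v
    obtain ⟨u, rfl⟩ := hmks u
    obtain ⟨v, rfl⟩ := hmks v
    refine Subgroup.mem_center_iff.2 fun w => ?_
    obtain ⟨w, rfl⟩ := hmks w
    rw [← map_commutatorElement, ← map_mul, ← map_mul, Subgroup.mem_center_iff.1 (hcen2 u v) w]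
  have hpowQ : ∀ u : R ⧸ M.subgroupOf R, u ^ s ∈ Subgroup.center (R ⧸ M.subgroupOf R) := by
    intro u
    obtain ⟨u, rfl⟩ := hmks u
    refine Subgroup.mem_center_iff.2 fun w => ?_
    obtain ⟨w, rfl⟩ := hmks w
    rw [← map_pow, ← map_mul, ← map_mul,
      show w * u ^ s = u ^ s * w from Subtype.ext (S.cent_central (pow_mem u.2 s) (S.pow_mem_cent u.2) w w.2).eq.symm]
  have hDQ : commutator (R ⧸ M.subgroupOf R) = Subgroup.zpowers (mk a) := by
    rw [commutator_def, ← Subgroup.map_top_of_surjective mk hmks, ← Subgroup.map_commutator, ← commutator_def,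
      hCK, Subgroup.map_sup, MonoidHom.map_zpowers]
    have hK1 : K.map mk = ⊥ := by
      rw [Subgroup.map_eq_bot_iff, hmk, QuotientGroup.ker_mk']
      exact fun k hk => Subgroup.mem_subgroupOf.2 (hKM ⟨k, hk, rfl⟩)
    rw [hK1, bot_sup_eq]
  have hamk : mk a ≠ 1 := fun h => haM (Subgroup.mem_subgroupOf.1 ((QuotientGroup.eq_one_iff a).1 h))
  have hcardQ : Nat.card (commutator (R ⧸ M.subgroupOf R)) = s := by
    rw [hDQ, Nat.card_zpowers]
    exact orderOf_eq_prime (by rw [← map_pow, hexp a haC, map_one]) hamk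
  by_cases hmove : ∀ u, σ u = u
  · refine S.false_of_trivial hMR hMne hRM hPM hcA hc1 ⟨S.hAR hcA, hcM, fun u hu => ?_⟩
    have h := hmove (QuotientGroup.mk ⟨u, hu⟩)
    rw [hσ, ← mul_inv_eq_one] at h
    rw [← QuotientGroup.mk_inv, ← QuotientGroup.mk_mul] at h
    exact Subgroup.mem_subgroupOf.1 ((QuotientGroup.eq_one_iff _).1 h)
  push Not at hmove
  obtain ⟨hEC, hs2, n, hn, hcardE⟩ := exceptional hℓ S.hsr.symm hℓne.2.2 hℓne.1 hQ ρU hρU σ hσℓ X hXℓ hX0 hXρ
    hcommQ hpowQ hcardQ hmove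
  have hσZ : ∀ z ∈ Subgroup.center (R ⧸ M.subgroupOf R), σ z = z :=
    fixed_of_comm hℓ S.hsr.symm hℓne.1 hQ ρU hρU σ hσℓ X hX0 hXρ _
      (fun z hz => Subgroup.mem_center_iff.2 fun b => by
        obtain ⟨b, rfl⟩ := σ.surjective b
        rw [← map_mul, ← map_mul, Subgroup.mem_center_iff.1 hz b])
      (fun u _ v hv => Subgroup.mem_center_iff.1 hv u)
  -- the actions
  set Zc := Subgroup.center (R ⧸ M.subgroupOf R) with hZc
  set T := P ⊔ Subgroup.zpowers c with hT
  have hTR : T ≤ Subgroup.normalizer (R : Set Γ) := sup_le S.hPR (Subgroup.zpowers_le.2 (S.hAR hcA))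
  have hTM : T ≤ Subgroup.normalizer (M : Set Γ) := sup_le hPM (Subgroup.zpowers_le.2 hcM)
  let ψ0 : T →* MulAut R := R.normalizerMonoidHom.comp (Subgroup.inclusion hTR)
  have hψ0 : ∀ (g : T) (u : R), ((ψ0 g u : R) : Γ) = (g : Γ) * u * (g : Γ)⁻¹ := fun g u => rfl
  let Ψ : T →* MulAut (R ⧸ M.subgroupOf R) := quotAut (M.subgroupOf R) ψ0 fun g => by
    refine Subgroup.eq_of_le_of_card_ge ?_ (Subgroup.card_map_of_injective (ψ0 g).injective).ge
    rintro _ ⟨u, hu, rfl⟩
    exact (Subgroup.mem_normalizer_iff.1 (hTM g.2) _).1 hu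
  let Χ : T →* MulAut ((R ⧸ M.subgroupOf R) ⧸ Zc) := quotAut Zc Ψ fun g =>
    Subgroup.characteristic_iff_map_eq.1 (inferInstance : Zc.Characteristic) (Ψ g)
  have hcT : c ∈ T := Subgroup.mem_sup_right (Subgroup.mem_zpowers c)
  have hPT : P ≤ T := le_sup_left
  set cT : T := ⟨c, hcT⟩ with hcTdef
  have hΨc : Ψ cT = σ := MulEquiv.ext fun u => by
    obtain ⟨u, rfl⟩ := QuotientGroup.mk_surjective u
    rw [hσ]; rfl
  have hCZ : commutator (R ⧸ M.subgroupOf R) ≤ Zc := by
    rw [commutator_def, Subgroup.commutator_le]; exact fun u _ v _ => hcommQ u v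
  have hΨD : ∀ g : T, ∀ z ∈ commutator (R ⧸ M.subgroupOf R), Ψ g z = z := by
    let F : Subgroup T :=
      { carrier := {g | ∀ z ∈ commutator (R ⧸ M.subgroupOf R), Ψ g z = z}
        one_mem' := fun z _ => by rw [map_one]; rfl
        mul_mem' := fun {g h} hg hh z hz => by rw [map_mul, MulAut.mul_apply, hh z hz, hg z hz]
        inv_mem' := fun {g} hg z hz => by
          conv_lhs => rw [← hg z hz]
          rw [← MulAut.mul_apply, ← map_mul, inv_mul_cancel, map_one]; rfl }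
    have hP' : P.subgroupOf T ≤ F := by
      intro g hg z hz
      rw [hDQ] at hz
      obtain ⟨i, rfl⟩ := Subgroup.mem_zpowers_iff.1 hz
      rw [map_zpow]
      congr 1
      show ((ψ0 g a : R) : R ⧸ M.subgroupOf R) = (a : R ⧸ M.subgroupOf R)
      congr 1
      refine Subtype.ext ?_
      rw [hψ0, ← (hCP _ haCg g hg).eq, mul_inv_cancel_right]
    have hc' : (Subgroup.zpowers c).subgroupOf T ≤ F := by
      rw [show (Subgroup.zpowers c).subgroupOf T = Subgroup.zpowers cT from by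
        apply Subgroup.map_injective T.subtype_injective
        rw [Subgroup.map_subgroupOf_eq_of_le (Subgroup.zpowers_le.2 hcT), MonoidHom.map_zpowers]; rfl]
      refine Subgroup.zpowers_le.2 fun z hz => ?_
      rw [hΨc]
      exact hσZ z (hCZ hz)
    intro g
    have htop : P.subgroupOf T ⊔ (Subgroup.zpowers c).subgroupOf T = ⊤ := by
      rw [← Subgroup.subgroupOf_sup hPT (Subgroup.zpowers_le.2 hcT)]
      exact Subgroup.subgroupOf_self _
    exact (sup_le hP' hc') (htop ▸ Subgroup.mem_top g)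
  letI : CommGroup ((R ⧸ M.subgroupOf R) ⧸ Zc) :=
    { (inferInstance : Group ((R ⧸ M.subgroupOf R) ⧸ Zc)) with
      mul_comm := fun u v => by
        obtain ⟨u, rfl⟩ := QuotientGroup.mk_surjective u
        obtain ⟨v, rfl⟩ := QuotientGroup.mk_surjective v
        rw [← QuotientGroup.mk_mul, ← QuotientGroup.mk_mul, QuotientGroup.eq,
          show (u * v)⁻¹ * (v * u) = ⁅v⁻¹, u⁻¹⁆ by rw [commutatorElement_def]; group]
        exact hcommQ _ _ }
  letI : CommGroup Zc :=
    { (inferInstance : Group Zc) with mul_comm := fun u v => Subtype.ext (Subgroup.mem_center_iff.1 v.2 u) }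
  have hWexp : ∀ u : (R ⧸ M.subgroupOf R) ⧸ Zc, u ^ s = 1 := fun u => by
    obtain ⟨u, rfl⟩ := QuotientGroup.mk_surjective u
    rw [← QuotientGroup.mk_pow]; exact (QuotientGroup.eq_one_iff _).2 (hpowQ u)
  letI : Module (ZMod s) (Additive ((R ⧸ M.subgroupOf R) ⧸ Zc)) := AddCommGroup.zmodModule (n := s) fun u =>
    Additive.toMul.injective (hWexp (Additive.toMul u))
  -- the commutator form
  let φ1 : (R ⧸ M.subgroupOf R) → ((R ⧸ M.subgroupOf R) ⧸ Zc →* Zc) := fun u => QuotientGroup.lift Zc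
    (MonoidHom.mk' (fun v => (⟨⁅u, v⁆, hcommQ u v⟩ : Zc)) fun v w =>
      Subtype.ext (CfsgLib.PCore.commutatorElement_mul_right_of_class_two hcommQ u v w))
    (fun v hv => by
      rw [MonoidHom.mem_ker]
      exact Subtype.ext (commutatorElement_eq_one_iff_mul_comm.2 (Subgroup.mem_center_iff.1 hv u)))
  have hφ1 : ∀ u v, ((φ1 u (QuotientGroup.mk v) : Zc) : R ⧸ M.subgroupOf R) = ⁅u, v⁆ := fun u v => rfl
  let β0 : (R ⧸ M.subgroupOf R) ⧸ Zc →* ((R ⧸ M.subgroupOf R) ⧸ Zc →* Zc) := QuotientGroup.lift Zc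
    (MonoidHom.mk' φ1 fun u v => MonoidHom.ext fun w => by
      obtain ⟨w, rfl⟩ := QuotientGroup.mk_surjective w
      refine Subtype.ext ?_
      show ⁅u * v, w⁆ = ⁅u, w⁆ * ⁅v, w⁆
      exact CfsgLib.PCore.commutatorElement_mul_left_of_class_two hcommQ u v w)
    (fun u hu => MonoidHom.ext fun w => by
      obtain ⟨w, rfl⟩ := QuotientGroup.mk_surjective w
      refine Subtype.ext ?_
      show ⁅u, w⁆ = 1
      exact commutatorElement_eq_one_iff_mul_comm.2 (Subgroup.mem_center_iff.1 hu w).symm)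
  let β : Additive ((R ⧸ M.subgroupOf R) ⧸ Zc) →+ Additive ((R ⧸ M.subgroupOf R) ⧸ Zc) →+ Additive Zc :=
    AddMonoidHom.mk' (fun u => MonoidHom.toAdditive (β0 (Additive.toMul u))) fun u v => AddMonoidHom.ext fun w => by
      show Additive.ofMul (β0 (Additive.toMul u * Additive.toMul v) (Additive.toMul w)) = _
      rw [map_mul]; rfl
  have halt : ∀ u, β u u = 0 := fun u => by
    obtain ⟨v, hv⟩ := QuotientGroup.mk_surjective (Additive.toMul u)
    show Additive.ofMul (β0 (Additive.toMul u) (Additive.toMul u)) = 0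
    rw [← hv]
    refine Additive.toMul.injective (Subtype.ext ?_)
    exact commutatorElement_self v
  have hnd : ∀ u, (∀ v, β u v = 0) → u = 0 := fun u hu => by
    obtain ⟨v, hv⟩ := QuotientGroup.mk_surjective (Additive.toMul u)
    refine Additive.toMul.injective ?_
    rw [← hv]
    refine (QuotientGroup.eq_one_iff v).2 (Subgroup.mem_center_iff.2 fun w => ?_)
    have h := hu (Additive.ofMul (QuotientGroup.mk w))
    have h' : ⁅v, w⁆ = 1 := by
      have h2 : β0 (Additive.toMul u) (QuotientGroup.mk w) = 1 := congrArg Additive.toMul h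
      rw [← hv] at h2
      exact congrArg Subtype.val h2
    exact (commutatorElement_eq_one_iff_mul_comm.1 h').symm
  set G := Χ.range with hG
  let toEnd : G →* AddMonoid.End (Additive ((R ⧸ M.subgroupOf R) ⧸ Zc)) :=
    { toFun := fun g => MonoidHom.toAdditive (g : MulAut ((R ⧸ M.subgroupOf R) ⧸ Zc)).toMonoidHom
      map_one' := rfl
      map_mul' := fun g h => rfl }
  let τ : Representation (ZMod s) G (Additive ((R ⧸ M.subgroupOf R) ⧸ Zc)) :=
    { toFun := fun g => AddMonoidHom.toZModLinearMap s (toEnd g)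
      map_one' := LinearMap.ext fun u => rfl
      map_mul' := fun g h => LinearMap.ext fun u => rfl }
  have hinv : ∀ g u v, β (toEnd g u) (toEnd g v) = β u v := by
    rintro ⟨_, g, rfl⟩ u v
    obtain ⟨u', hu⟩ := QuotientGroup.mk_surjective (Additive.toMul u)
    obtain ⟨v', hv⟩ := QuotientGroup.mk_surjective (Additive.toMul v)
    show Additive.ofMul (β0 (Χ g (Additive.toMul u)) (Χ g (Additive.toMul v))) =
      Additive.ofMul (β0 (Additive.toMul u) (Additive.toMul v))
    rw [← hu, ← hv]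
    refine congrArg _ (Subtype.ext ?_)
    show ⁅Ψ g u', Ψ g v'⁆ = ⁅u', v'⁆
    rw [← map_commutatorElement]
    exact hΨD g _ (Subgroup.commutator_mem_commutator (Subgroup.mem_top _) (Subgroup.mem_top _))
  haveI : Finite G := inferInstance
  set cG : G := Χ.rangeRestrict cT with hcG
  have hcGℓ : cG ^ ℓ = 1 := by
    rw [hcG, ← map_pow, show cT ^ ℓ = 1 from Subtype.ext (pow_orderOf_eq_one c), map_one]
  have hPab : ∀ g h : T, (g : Γ) ∈ P → (h : Γ) ∈ P → Χ g * Χ h = Χ h * Χ g := by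
    intro g h hg hh
    rw [← commutatorElement_eq_one_iff_mul_comm, ← map_commutatorElement]
    refine MulEquiv.ext fun u => ?_
    obtain ⟨u, rfl⟩ := QuotientGroup.mk_surjective u
    obtain ⟨u, rfl⟩ := QuotientGroup.mk_surjective u
    show ((((ψ0 ⁅g, h⁆ u : R) : R ⧸ M.subgroupOf R)) : (R ⧸ M.subgroupOf R) ⧸ Zc) = _
    refine congrArg (fun z : R => (((z : R ⧸ M.subgroupOf R)) : (R ⧸ M.subgroupOf R) ⧸ Zc)) (Subtype.ext ?_)
    rw [hψ0, show ((⁅g, h⁆ : T) : Γ) = ⁅(g : Γ), (h : Γ)⁆ from map_commutatorElement T.subtype g h,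
      ← Subgroup.mem_centralizer_iff.1 (S.hPab (Subgroup.commutator_mem_commutator hg hh)) u u.2, mul_inv_cancel_right]
  set N0 := ⁅P, Subgroup.zpowers c⁆ with hN0
  have hcP : Subgroup.zpowers c ≤ Subgroup.normalizer (P : Set Γ) := (Subgroup.zpowers_le.2 hcA).trans S.hAP
  have hN0P : N0 ≤ P := commutator_le_of_normalizer hcP
  have hTN0 : T ≤ Subgroup.normalizer (N0 : Set Γ) :=
    sup_le self_le_normalizer_commutator (CoprimeAction.le_normalizer_commutator hcP)
  haveI : (N0.subgroupOf T).Normal := (Subgroup.normal_subgroupOf_iff_le_normalizer (hN0P.trans hPT)).2 hTN0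
  set NG := (N0.subgroupOf T).map Χ.rangeRestrict with hNG
  haveI : NG.Normal := Subgroup.Normal.map inferInstance _ Χ.rangeRestrict_surjective
  set PG := (P.subgroupOf T).map Χ.rangeRestrict with hPG
  have hPGc : ∀ u ∈ PG, ∀ v ∈ PG, u * v = v * u := by
    rintro _ ⟨g, hg, rfl⟩ _ ⟨h, hh, rfl⟩
    exact Subtype.ext (hPab g h hg hh)
  have hNPG : NG ≤ PG := Subgroup.map_mono (Subgroup.comap_mono hN0P)
  have hPGt : IsPGroup t PG := (S.hP.of_equiv (Subgroup.subgroupOfEquivOfLe hPT).symm).map _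
  have hfpfN : ∀ z ∈ NG, cG * z * cG⁻¹ = z → z = 1 := by
    intro z hz hzc
    haveI : IsMulCommutative PG := ⟨⟨fun u v => Subtype.ext (hPGc u u.2 v v.2)⟩⟩
    have hnorm : Subgroup.zpowers cG ≤ Subgroup.normalizer (PG : Set G) := by
      refine Subgroup.zpowers_le.2 (mem_normalizer_of_forall ?_)
      rintro _ ⟨g, hg, rfl⟩
      refine ⟨cT * g * cT⁻¹, ?_, by rw [map_mul, map_mul, map_inv]⟩
      exact (Subgroup.mem_normalizer_iff.1 (S.hAP hcA) _).1 hg
    have hcop : (Nat.card (Subgroup.zpowers cG)).Coprime (Nat.card PG) := by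
      obtain ⟨k, hk⟩ := hPGt.exists_card_eq
      rw [hk, Nat.card_zpowers]
      exact (((Nat.coprime_primes hℓ S.ht).2 hℓne.2.1.symm).pow_right k).coprime_dvd_left
        (orderOf_dvd_of_pow_eq_one hcGℓ)
    have hNle : NG ≤ ⁅PG, Subgroup.zpowers cG⁆ := by
      have e : N0.subgroupOf T = ⁅P.subgroupOf T, Subgroup.zpowers cT⁆ := by
        apply Subgroup.map_injective T.subtype_injective
        rw [Subgroup.map_subgroupOf_eq_of_le (hN0P.trans hPT), Subgroup.map_commutator,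
          Subgroup.map_subgroupOf_eq_of_le hPT, MonoidHom.map_zpowers]
        rfl
      rw [hNG, e, Subgroup.map_commutator, MonoidHom.map_zpowers]
    refine Subgroup.mem_bot.1 ((centralizer_inf_commutator_eq_bot hnorm hcop).le ⟨⟨hNPG hz, ?_⟩, hNle hz⟩)
    refine Subgroup.mem_centralizer_iff.2 fun e he => ?_
    exact (Subgroup.mem_centralizer_singleton_iff.1 (Subgroup.zpowers_le.2
      (Subgroup.mem_centralizer_singleton_iff.2 (mul_inv_eq_iff_eq_mul.1 hzc)) he))
  -- bound on the vectors of norm zero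
  set mkW := QuotientGroup.mk' Zc with hmkW
  have hpowc : ∀ (i : ℕ) (u : R ⧸ M.subgroupOf R), (Χ (cT ^ i)) (mkW u) = mkW ((σ ^ i) u) := by
    intro i u
    rw [← hΨc, ← map_pow]; rfl
  set E := (normHom σ ℓ).ker with hEdef
  have hEimg : Nat.card (E.map mkW) ≤ 2 ^ (2 * n) := by
    let f := mkW.comp E.subtype
    have h1 := Subgroup.card_mul_index f.ker
    rw [Subgroup.index_ker, hcardE] at h1
    have hr : f.range = E.map mkW := by rw [MonoidHom.range_comp, Subgroup.range_subtype]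
    have hk : 2 ≤ Nat.card f.ker := by
      have hmem : mk a ∈ E := Abelianization.commutator_subset_ker _ (hDQ ▸ Subgroup.mem_zpowers _)
      have hker : (⟨mk a, hmem⟩ : E) ∈ f.ker := MonoidHom.mem_ker.2 ((QuotientGroup.eq_one_iff _).2 (by
        have := hDQ ▸ Subgroup.mem_zpowers (mk a)
        exact hCZ this))
      haveI : Nontrivial f.ker := ⟨⟨⟨_, hker⟩, 1, fun h => hamk (congrArg (fun e : f.ker => ((e : E) : R ⧸ M.subgroupOf R)) h)⟩⟩
      exact Finite.one_lt_card
    rw [← hr]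
    rw [pow_succ'] at h1
    nlinarith [Nat.mul_le_mul_right (Nat.card f.range) hk]
  have hbound : Nat.card {u : Additive ((R ⧸ M.subgroupOf R) ⧸ Zc) // ∑ i ∈ Finset.range ℓ, τ (cG ^ i) u = 0} ≤
      2 ^ (2 * n) := by
    have hmem : ∀ u : {u : Additive ((R ⧸ M.subgroupOf R) ⧸ Zc) // ∑ i ∈ Finset.range ℓ, τ (cG ^ i) u = 0},
        (Additive.toMul u.1) ^ ℓ ∈ E.map mkW := by
      rintro ⟨u, hu⟩
      obtain ⟨v, hv⟩ := QuotientGroup.mk'_surjective Zc (Additive.toMul u)
      obtain ⟨z, hz⟩ := QuotientGroup.mk_surjective (normHom σ ℓ v)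
      replace hz : Abelianization.of z = normHom σ ℓ v := hz
      have hzc : z ∈ Zc := by
        rw [← QuotientGroup.eq_one_iff]
        have h := congrArg (Abelianization.lift mkW) hz
        rw [Abelianization.lift_apply_of, normHom_apply, map_prod] at h
        simp only [Abelianization.lift_apply_of, ← hpowc] at h
        refine h.trans ?_
        have hu' := congrArg Additive.toMul hu
        rw [toMul_sum, toMul_zero] at hu'
        refine Eq.trans (Finset.prod_congr rfl fun i _ => ?_) hu'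
        rw [hv, hcG, ← map_pow]
        rfl
      refine ⟨v ^ ℓ * z⁻¹, ?_, ?_⟩
      · rw [SetLike.mem_coe, hEdef, MonoidHom.mem_ker, map_mul, map_inv, map_pow, mul_inv_eq_one,
          normHom_apply σ ℓ z, Finset.prod_congr rfl fun i _ => by
            rw [CfsgLib.ExtraFpf.pow_apply_fixed (hσZ z hzc) i], Finset.prod_const, Finset.card_range, hz]
      · show mkW (v ^ ℓ * z⁻¹) = (Additive.toMul u) ^ ℓ
        rw [map_mul, map_inv, show mkW z = 1 from (QuotientGroup.eq_one_iff z).2 hzc, inv_one, mul_one, map_pow, hv]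
    refine (Nat.card_le_card_of_injective (fun u => (⟨_, hmem u⟩ : E.map mkW)) fun u v h => ?_).trans hEimg
    have h' : (Additive.toMul u.1) ^ ℓ = (Additive.toMul v.1) ^ ℓ := congrArg Subtype.val h
    refine Subtype.ext (Additive.toMul.injective ?_)
    rw [← mul_inv_eq_one, ← inv_pow, ← mul_pow] at h'
    rw [← mul_inv_eq_one]
    have hd1 := orderOf_dvd_of_pow_eq_one h'
    have hd2 := orderOf_dvd_of_pow_eq_one (hWexp (Additive.toMul u.1 * (Additive.toMul v.1)⁻¹))
    exact orderOf_eq_one_iff.1 (Nat.eq_one_of_dvd_coprimes ((Nat.coprime_primes hℓ S.hs).2 hℓne.1.symm) hd1 hd2)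
  have hNtriv : ∀ g : T, (g : Γ) ∈ N0 → Χ g = 1 := by
    rcases le_moved (s := s) τ β halt hnd hinv NG (fun u hu v hv => hPGc u (hNPG hu) v (hNPG hv))
      (fun hd => by
        obtain ⟨k, hk⟩ := (hPGt.to_le hNPG).exists_card_eq
        rw [hk] at hd
        exact S.hts ((Nat.prime_dvd_prime_iff_eq S.hs S.ht).1 (S.hs.dvd_of_dvd_pow hd)).symm)
      hℓ hℓne.1 hcGℓ hfpfN with h | h
    · intro g hg
      have h1 := h _ ⟨g, hg, rfl⟩
      refine MulEquiv.ext fun u => ?_
      exact congrArg Additive.toMul (LinearMap.congr_fun h1 (Additive.ofMul u))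
    · exfalso
      subst hs2
      have h2 := (Nat.pow_le_pow_iff_right (by norm_num)).1 (h.trans hbound)
      have h3 : n < 2 ^ n := Nat.lt_two_pow_self
      omega
  -- the preimage of the centre
  set ZM : Subgroup Γ := (Zc.comap mk).map R.subtype with hZM
  have hmemZM : ∀ u : R, (u : Γ) ∈ ZM ↔ mk u ∈ Zc := fun u => by
    constructor
    · rintro ⟨v, hv, hvu⟩
      rwa [← show v = u from Subtype.ext hvu]
    · exact fun h => ⟨u, h, rfl⟩
  have hZMR : ZM ≤ R := Subgroup.map_subtype_le _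
  have hRZM : R ≤ Subgroup.normalizer (ZM : Set Γ) := fun g hg => by
    refine mem_normalizer_of_forall ?_
    rintro _ ⟨v, hv, rfl⟩
    exact ⟨⟨g, hg⟩ * v * ⟨g, hg⟩⁻¹, (inferInstance : (Zc.comap mk).Normal).conj_mem v hv _, rfl⟩
  have hTZM : T ≤ Subgroup.normalizer (ZM : Set Γ) := fun g hg => by
    refine mem_normalizer_of_forall ?_
    rintro _ ⟨v, hv, rfl⟩
    exact ⟨ψ0 ⟨g, hg⟩ v, Subgroup.characteristic_iff_map_le.1 (inferInstance : Zc.Characteristic) (Ψ ⟨g, hg⟩)
      ⟨mk v, hv, rfl⟩, rfl⟩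
  have hker : ∀ g : T, Χ g = 1 → (g : Γ) ∈ trivAct R ZM := by
    refine fun g hg => ⟨hTR g.2, hTZM g.2, fun u hu => ?_⟩
    have h := MulEquiv.congr_fun hg (mkW (mk ⟨u, hu⟩))
    have h' : mkW (mk (ψ0 g ⟨u, hu⟩ * ⟨u, hu⟩⁻¹)) = 1 := by
      rw [map_mul, map_mul, map_inv, map_inv, mul_inv_eq_one]
      exact h
    exact (hmemZM (ψ0 g ⟨u, hu⟩ * ⟨u, hu⟩⁻¹)).2
      ((QuotientGroup.eq_one_iff (mk (ψ0 g ⟨u, hu⟩ * (⟨u, hu⟩ : R)⁻¹))).1 h')
  have hDZM : R ⊓ Subgroup.centralizer (P : Set Γ) ≤ ZM := fun d hd => (hmemZM ⟨d, hd.1⟩).2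
    (Subgroup.mem_center_iff.2 fun w => by
      obtain ⟨w, rfl⟩ := hmks w
      rw [← map_mul, ← map_mul, show w * ⟨d, hd.1⟩ = ⟨d, hd.1⟩ * w from Subtype.ext
        (S.cent_central hd.1 (fun z hz => (Subgroup.mem_centralizer_iff.1 hd.2 z hz).symm) w w.2).eq.symm])
  have hfixW : ∀ u : Additive ((R ⧸ M.subgroupOf R) ⧸ Zc), toEnd cG u = u → u = 0 := by
    intro u hu
    obtain ⟨v, hv⟩ := QuotientGroup.mk'_surjective Zc (Additive.toMul u)
    obtain ⟨v, rfl⟩ := hmks v
    refine Additive.toMul.injective ?_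
    rw [← hv]
    refine (QuotientGroup.eq_one_iff _).2 ((hmemZM v).1 ?_)
    refine sup_le hDZM le_rfl (S.fixed_mem hZMR hRZM hcA hc1
      (fun g hg => hker ⟨g, hPT (hN0P hg)⟩ (hNtriv _ hg)) v.2 ⟨hTZM hcT, ?_⟩)
    have h : Χ cT (mkW (mk v)) = mkW (mk v) := by
      have := congrArg Additive.toMul hu
      rw [show Additive.toMul (toEnd cG u) = Χ cT (Additive.toMul u) from rfl, ← hv] at this
      exact this
    have h' : mkW (mk (ψ0 cT v * v⁻¹)) = 1 := by
      rw [map_mul, map_mul, map_inv, map_inv, mul_inv_eq_one]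
      exact h
    exact (hmemZM (ψ0 cT v * v⁻¹)).2 ((QuotientGroup.eq_one_iff (mk (ψ0 cT v * v⁻¹))).1 h')
  have hWcard : Nat.card (Additive ((R ⧸ M.subgroupOf R) ⧸ Zc)) ≤ 2 ^ (2 * n) := by
    refine le_trans ?_ hbound
    refine Nat.card_le_card_of_injective (fun u => ⟨u, ?_⟩) fun u v h => congrArg Subtype.val h
    refine hfixW _ ?_
    show τ cG _ = _
    rw [map_sum]
    have e1 := Finset.sum_range_succ' (fun i => τ (cG ^ i) u) ℓ
    rw [Finset.sum_range_succ, hcGℓ, pow_zero] at e1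
    simp only [← Module.End.mul_apply, ← map_mul, ← pow_succ']
    exact (add_right_cancel e1).symm
  have hPtriv : ∀ g : T, (g : Γ) ∈ P → Χ g = 1 := by
    intro g hg
    have hcomm : Commute (Χ.rangeRestrict g) cG := by
      have h1 : Χ ⁅g, cT⁆ = 1 := hNtriv _ (by
        rw [show ((⁅g, cT⁆ : T) : Γ) = ⁅(g : Γ), c⁆ from map_commutatorElement T.subtype g cT]
        exact Subgroup.commutator_mem_commutator hg (Subgroup.mem_zpowers c))
      rw [map_commutatorElement, commutatorElement_eq_one_iff_mul_comm] at h1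
      exact Subtype.ext h1
    obtain ⟨k, hk⟩ := S.hP ⟨g, hg⟩
    subst hs2
    have h := eq_one_of_commute β hnd (fun u => by rw [← two_nsmul]; exact Additive.toMul.injective (hWexp (Additive.toMul u)))
      hℓ hn hWcard (toEnd cG) (by rw [← map_pow, hcGℓ, map_one]) hfixW (hinv cG)
      (toEnd (Χ.rangeRestrict g)) (hcomm.map toEnd) (hinv _)
      (m := t ^ k) (((Nat.coprime_primes S.ht hℓ).2 hℓne.2.1).pow_left k)
      (by
        rw [← map_pow, ← map_pow, show g ^ t ^ k = 1 from Subtype.ext (by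
          rw [SubgroupClass.coe_pow]
          exact congrArg Subtype.val hk), map_one, map_one])
    refine MulEquiv.ext fun u => ?_
    exact congrArg Additive.toMul (DFunLike.congr_fun h (Additive.ofMul u))
  -- conclusion
  have hRZ : R ≤ ZM := by
    calc R = ⁅R, P⁆ := S.hRP.symm
      _ ≤ ZM := Subgroup.commutator_le.2 fun u hu g hg => by
        have := (hker ⟨g, hPT hg⟩ (hPtriv _ hg)).2.2 u hu
        rw [show ⁅u, g⁆ = (g * u * g⁻¹ * u⁻¹)⁻¹ by rw [commutatorElement_def]; group]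
        exact inv_mem this
  have hbot : commutator (R ⧸ M.subgroupOf R) = ⊥ := by
    rw [eq_bot_iff, commutator_def, Subgroup.commutator_le]
    intro u _ v _
    obtain ⟨u, rfl⟩ := hmks u
    rw [Subgroup.mem_bot, commutatorElement_eq_one_iff_mul_comm]
    exact (Subgroup.mem_center_iff.1 ((hmemZM u).1 (hRZ u.2)) v).symm
  rw [hDQ, Subgroup.zpowers_eq_bot] at hbot
  exact hamk hbot

end Reduced

end CfsgLib.FpfPQ
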