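import Mathlib
import Cfsg.Agent.FpfPQ.CaseTwo

/-!
The case of an abelian `R`: hyperplane weights and their types.
-/

set_option autoImplicit false

namespace CfsgLib.FpfPQ

open scoped commutatorElement
open CfsgLib.CoprimeAction
open scoped Pointwise

variable {Γ : Type*} [Group Γ] [Finite Γ] {r : ℕ} [Fact r.Prime] {U : Type*} [AddCommGroup U] [Module (ZMod r) U]

/-- A hyperplane of `R` with a fixed vector moved by `R`. -/
def Hyper (ρ : Γ →* Module.End (ZMod r) U) (R B : Subgroup Γ) : Prop :=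
  B ≤ R ∧ ∃ a ∈ R, a ∉ B ∧ (∀ z ∈ R, ∃ b ∈ B, ∃ i : ℤ, z = b * a ^ i) ∧
    ∃ v : U, (∀ b ∈ B, ρ b v = v) ∧ ρ a v ≠ v

theorem hyper_conj {ρ : Γ →* Module.End (ZMod r) U} {R B : Subgroup Γ} (hB : Hyper ρ R B) {g : Γ}
    (hg : g ∈ Subgroup.normalizer (R : Set Γ)) : Hyper ρ R (MulAut.conj g • B) := by
  obtain ⟨hBR, a, ha, haB, hgen, v, hv, hav⟩ := hB
  refine ⟨fun z hz => ?_, g * a * g⁻¹, (Subgroup.mem_normalizer_iff.1 hg a).1 ha, fun h => ?_, fun z hz => ?_,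
    ρ g v, fun b hb => ?_, fun h => hav ?_⟩
  · rw [mem_conj_smul] at hz
    have := (Subgroup.mem_normalizer_iff.1 hg _).1 (hBR hz)
    simpa [mul_assoc] using this
  · rw [mem_conj_smul] at h
    exact haB (by simpa [mul_assoc] using h)
  · obtain ⟨b, hb, i, hbi⟩ := hgen _ ((Subgroup.mem_normalizer_iff''.1 hg z).1 hz)
    refine ⟨g * b * g⁻¹, conj_mem_conj_smul hb, i, ?_⟩
    rw [conj_zpow, show g * b * g⁻¹ * (g * a ^ i * g⁻¹) = g * (b * a ^ i) * g⁻¹ by group, ← hbi]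
    group
  · rw [mem_conj_smul] at hb
    rw [← rho_mul, show b * g = g * (g⁻¹ * b * g) by group, rho_mul, hv _ hb]
  · have h2 := congrArg (ρ g⁻¹) h
    rwa [← rho_mul, ← rho_mul, ← rho_mul, show g⁻¹ * (g * a * g⁻¹) * g = a by group, inv_mul_cancel, map_one] at h2

namespace Reduced

variable {s t p q : ℕ} {ρ : Γ →* Module.End (ZMod r) U} {A P R : Subgroup Γ} {x y : Γ}

theorem false_of_abelian [Finite U] (S : Reduced s t p q ρ A P R x y)
    (hab : ∀ u ∈ R, ∀ v ∈ R, Commute u v) : False := by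
  classical
  haveI := Fact.mk S.hs
  haveI := Fact.mk S.ht
  haveI : IsMulCommutative R := ⟨⟨fun u v => Subtype.ext (hab u u.2 v v.2).eq⟩⟩
  have hD : ∀ d ∈ R, (∀ w ∈ P, Commute d w) → d = 1 := fun d hd hdP =>
    Subgroup.mem_bot.1 ((centralizer_inf_commutator_eq_bot S.hPR S.coprime_PR).le
      ⟨⟨hd, Subgroup.mem_centralizer_iff.2 fun w hw => (hdP w hw).eq.symm⟩, S.hRP.ge hd⟩)
  have hexp : ∀ u ∈ R, u ^ s = 1 := fun u hu => hD _ (pow_mem hu s) (S.pow_mem_cent hu)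
  have hRn : ∀ B : Subgroup Γ, B ≤ R → R ≤ Subgroup.normalizer (B : Set Γ) := fun B hB u hu =>
    mem_normalizer_of_forall fun z hz => by rw [(hab u hu z (hB hz)).eq, mul_inv_cancel_right]; exact hz
  -- a hyperplane
  obtain ⟨u1, hu1, hu11⟩ : ∃ u ∈ R, u ≠ 1 := by
    by_contra h
    push Not at h
    exact S.hne fun w _ => Subgroup.mem_centralizer_iff.2 fun u hu => by rw [h u hu, one_mul, mul_one]
  obtain ⟨K, -, a0, -, ha0K, hKtop, v0, hv0, hav0⟩ := CfsgLib.ExtraFpf.exists_cocyclic (p := r) (q := s) (V := U)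
    S.hsr.symm (⊤ : Subgroup R) (fun u _ => Subgroup.mem_center_iff.2 fun v => Subtype.ext (hab v v.2 u u.2).eq)
    (fun u _ => Subtype.ext (hexp u u.2)) (ρ.comp R.subtype)
    ⟨⟨u1, hu1⟩, Subgroup.mem_top _, fun h => hu11 (S.faith u1 hu1 h)⟩
  haveI : K.Normal := ⟨fun k hk g => by
    rw [show g * k = k * g from Subtype.ext (hab g g.2 k k.2).eq, mul_inv_cancel_right]; exact hk⟩
  have hB0 : Hyper ρ R (K.map R.subtype) := by
    refine ⟨Subgroup.map_subtype_le _, a0, a0.2, ?_, fun z hz => ?_, v0, ?_, hav0⟩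
    · rintro ⟨k, hk, hka⟩
      exact ha0K (Subtype.ext hka ▸ hk)
    · obtain ⟨k, hk, e, he, hke⟩ := Subgroup.mem_sup_of_normal_left.1 (hKtop ▸ Subgroup.mem_top (⟨z, hz⟩ : R))
      obtain ⟨i, rfl⟩ := Subgroup.mem_zpowers_iff.1 he
      exact ⟨k, ⟨k, hk, rfl⟩, i, by simpa using (congrArg Subtype.val hke).symm⟩
    · rintro _ ⟨k, hk, rfl⟩; exact hv0 k hk
  -- facts about hyperplanes
  have hne : ∀ B, Hyper ρ R B → B ≠ R := fun B ⟨_, a, ha, haB, _⟩ h => haB (h ▸ ha)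
  have hcyc : ∀ B, Hyper ρ R B → ∀ f g : MulAut (R ⧸ B.subgroupOf R), f * g = g * f := by
    intro B hB f g
    obtain ⟨hBR, a, ha, haB, hgen, -⟩ := hB
    haveI : IsCyclic (R ⧸ B.subgroupOf R) := ⟨⟨QuotientGroup.mk ⟨a, ha⟩, fun z => by
      obtain ⟨z, rfl⟩ := QuotientGroup.mk_surjective z
      obtain ⟨b, hb, i, hbi⟩ := hgen z z.2
      refine ⟨i, ?_⟩
      show (QuotientGroup.mk (⟨a, ha⟩ : R)) ^ i = _
      rw [← QuotientGroup.mk_zpow, QuotientGroup.eq, Subgroup.mem_subgroupOf]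
      show (((⟨a, ha⟩ : R) ^ i : R) : Γ)⁻¹ * z ∈ B
      rw [SubgroupClass.coe_zpow, hbi, (hab b (hBR hb) (a ^ i) (zpow_mem ha i)).eq, inv_mul_cancel_left]
      exact hb⟩⟩
    exact (IsCyclic.mulAutMulEquiv _).injective (by rw [map_mul, map_mul, mul_comm])
  have hφ : ∀ B : Subgroup Γ, ∀ (T : Subgroup Γ) (hTR : T ≤ Subgroup.normalizer (R : Set Γ)),
      T ≤ Subgroup.normalizer (B : Set Γ) → ∃ φ : T →* MulAut (R ⧸ B.subgroupOf R), ∀ g : T, φ g = 1 ↔
        (g : Γ) ∈ trivAct R B := by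
    intro B T hTR hTB
    let ψ0 : T →* MulAut R := R.normalizerMonoidHom.comp (Subgroup.inclusion hTR)
    refine ⟨quotAut (B.subgroupOf R) ψ0 fun g => ?_, fun g => ?_⟩
    · refine Subgroup.eq_of_le_of_card_ge ?_ (Subgroup.card_map_of_injective (ψ0 g).injective).ge
      rintro _ ⟨u, hu, rfl⟩
      exact (Subgroup.mem_normalizer_iff.1 (hTB g.2) _).1 hu
    · constructor
      · refine fun h => ⟨hTR g.2, hTB g.2, fun u hu => ?_⟩
        have h1 := MulEquiv.congr_fun h (QuotientGroup.mk ⟨u, hu⟩)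
        rw [quotAut_mk, MulAut.one_apply, ← mul_inv_eq_one, ← QuotientGroup.mk_inv, ← QuotientGroup.mk_mul] at h1
        exact Subgroup.mem_subgroupOf.1 ((QuotientGroup.eq_one_iff _).1 h1)
      · intro h
        refine MulEquiv.ext fun u => ?_
        obtain ⟨u, rfl⟩ := QuotientGroup.mk_surjective u
        rw [quotAut_mk, MulAut.one_apply, ← mul_inv_eq_one, ← QuotientGroup.mk_inv, ← QuotientGroup.mk_mul,
          QuotientGroup.eq_one_iff]
        exact Subgroup.mem_subgroupOf.2 (h.2.2 u u.2)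
  have hxtriv : ∀ B, Hyper ρ R B → A ≤ Subgroup.normalizer (B : Set Γ) → x ∈ trivAct R B := by
    intro B hB hAB
    obtain ⟨φ, hφker⟩ := hφ B A S.hAR hAB
    refine S.ops.mem_of_commutator_mem ((hφker ⟨y * x * y⁻¹ * x⁻¹, mul_mem (mul_mem (mul_mem S.ops.hy S.ops.hx)
      (inv_mem S.ops.hy)) (inv_mem S.ops.hx)⟩).1 ?_)
    rw [show (⟨y * x * y⁻¹ * x⁻¹, _⟩ : A) = ⟨y, S.ops.hy⟩ * ⟨x, S.ops.hx⟩ * ⟨y, S.ops.hy⟩⁻¹ * ⟨x, S.ops.hx⟩⁻¹
      from rfl, map_mul, map_mul, map_mul, map_inv, map_inv, hcyc B hB (φ ⟨y, _⟩) (φ ⟨x, _⟩), mul_inv_cancel_right,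
      mul_inv_cancel]
  have hyfix : ∀ B, Hyper ρ R B → A ≤ Subgroup.normalizer (B : Set Γ) →
      ∀ c ∈ A, c ∈ trivAct R B → c ∈ Subgroup.zpowers x := by
    intro B hB hAB c hc hct
    by_contra hcX
    have hle : A ≤ trivAct R B := by
      rw [← S.ops.sup_eq hc S.ops.hx S.ops.x_ne_one hcX]
      exact sup_le (Subgroup.zpowers_le.2 (hxtriv B hB hAB)) (Subgroup.zpowers_le.2 hct)
    obtain ⟨hBR, a, ha, haB, -⟩ := hB
    obtain ⟨n, hn, hnc⟩ := exists_mem_centralizer (A := A) (N := B) (k := a) hAB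
      (S.coprime_AR.coprime_dvd_right (Subgroup.card_dvd_of_le hBR)) (Or.inl S.ops.solv)
      (fun g hg => (hle hg).2.2 a ha)
    have := S.fixR _ (mul_mem (hBR hn) ha) fun g hg => Subgroup.mem_centralizer_iff.1 hnc g hg
    exact haB (by rw [eq_inv_of_mul_eq_one_right this]; exact inv_mem hn)
  have htype : ∀ B, Hyper ρ R B → ∃ c ∈ A, c ≠ 1 ∧ c ∈ trivAct R B := by
    intro B hB
    have hB' := hB
    obtain ⟨hBR, a, ha, haB, hgen, v, hv, hav⟩ := hB
    have hRR : R ≤ Subgroup.normalizer (R : Set Γ) := Subgroup.le_normalizer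
    obtain ⟨u0, hu0, hu00⟩ := exists_wt_ne_zero S.hs S.hsr S.hR (hRn B hBR) ha hv hav
    have hgfix : ∀ g ∈ R, g ∉ B → ∀ u : U, (∀ b ∈ B, ρ b u = u) → ρ g u = u → ∀ z ∈ R, ρ z u = u := by
      intro g hg hgB u h1 h2 z hz
      obtain ⟨b, hb, i, rfl⟩ := hgen g hg
      have hai : ρ (a ^ i) u = u := by
        have h3 := (fixer ρ u).mul_mem ((fixer ρ u).inv_mem (h1 b hb)) h2
        rwa [inv_mul_cancel_left] at h3
      have hne : a ^ i ≠ 1 := fun h => hgB (by rw [h, mul_one]; exact hb)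
      have haa : a ∈ Subgroup.zpowers (a ^ i) := by
        have hord : orderOf a = s := orderOf_eq_prime (hexp a ha) fun h => haB (h ▸ one_mem B)
        have hmem : a ^ i ∈ Subgroup.zpowers a := Subgroup.zpow_mem_zpowers _ i
        have : Subgroup.zpowers (a ^ i) = Subgroup.zpowers a := by
          refine Subgroup.eq_of_le_of_card_ge (Subgroup.zpowers_le.2 hmem) ?_
          rw [Nat.card_zpowers, Nat.card_zpowers, hord]
          refine ((S.hs.eq_one_or_self_of_dvd _ ?_).resolve_left fun e => hne (orderOf_eq_one_iff.1 e)).ge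
          rw [← hord, ← Nat.card_zpowers a]
          exact Subgroup.orderOf_dvd_natCard _ hmem
        exact this.ge (Subgroup.mem_zpowers _)
      have ha' : ρ a u = u := (Subgroup.zpowers_le.2 (show a ^ i ∈ fixer ρ u from hai) haa : a ∈ fixer ρ u)
      obtain ⟨b', hb', j, rfl⟩ := hgen z hz
      exact (fixer ρ u).mul_mem (h1 b' hb') ((fixer ρ u).zpow_mem ha' j)
    have hpure : ∀ g ∈ A, MulAut.conj g • B ≠ B → ∀ u ∈ wt ρ B R,
        (∀ b ∈ MulAut.conj g • B, ρ b u = u) → u = 0 := by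
      intro g hg hgne u hu hfix
      obtain ⟨z, hz, hzB⟩ : ∃ z ∈ MulAut.conj g • B, z ∉ B := by
        by_contra h
        push Not at h
        exact hgne (Subgroup.eq_of_le_of_card_ge h (card_conj_smul g B).ge)
      exact eq_zero_of_fixed S.hs S.hsr S.hR (mem_wt.1 hu).2
        (hgfix z ((hyper_conj hB' (S.hAR hg)).1 hz) hzB u (mem_wt.1 hu).1 (hfix z hz))
    have hfaith : ∀ g ∈ R, (∀ u ∈ wt ρ B R, ρ g u = u) → g ∈ B := by
      intro g hg hfix
      by_contra hgB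
      exact hu00 (eq_zero_of_fixed S.hs S.hsr S.hR (mem_wt.1 hu0).2 (hgfix g hg hgB u0 (mem_wt.1 hu0).1 (hfix u0 hu0)))
    rcases S.ops.subgroup_cases (H := A ⊓ Subgroup.normalizer (B : Set Γ)) inf_le_left with h | ⟨-, -, hAH⟩ |
      ⟨c, hcA, hc1, hH⟩
    · exact absurd (S.toSetup.fix_stab_eq_zero hBR (hRn B hBR) hRR S.hAR hpure hu0 fun g hg hgM => by
        have : g = 1 := Subgroup.mem_bot.1 (h ▸ ⟨hg, hgM⟩)
        rw [this, map_one]; rfl) hu00
    · exact ⟨x, S.ops.hx, S.ops.x_ne_one, hxtriv B hB' (hAH.trans inf_le_right)⟩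
    · have hc : c ∈ A ⊓ Subgroup.normalizer (B : Set Γ) := hH ▸ Subgroup.mem_zpowers c
      refine ⟨c, hcA, hc1, ?_⟩
      have hfixc : ∀ u ∈ wt ρ B R, ρ c u = u → u = 0 := fun u hu hcu =>
        S.toSetup.fix_stab_eq_zero hBR (hRn B hBR) hRR S.hAR hpure hu fun g hg hgM => by
          have : g ∈ Subgroup.zpowers c := hH ▸ ⟨hg, hgM⟩
          exact (Subgroup.zpowers_le.2 (show c ∈ fixer ρ u from hcu) this : g ∈ fixer ρ u)
      haveI : (B.subgroupOf R).Normal := (Subgroup.normal_subgroupOf_iff_le_normalizer hBR).2 (hRn B hBR)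
      obtain ⟨σ, ρU, X, hσ, hσℓ, hρU, hXℓ, hX0, hXρ⟩ := S.toSetup.exists_quotient_data (hRn B hBR) hRR hcA hc.2
        (S.hAR hcA) (pow_orderOf_eq_one c) hfixc hfaith
      have hℓs : s ≠ orderOf c := by
        rcases S.ops.orderOf_cases hcA hc1 with h | h <;> rw [h]
        exacts [S.hps.symm, S.hqs.symm]
      have hfix := fixed_of_comm (S.ops.prime_orderOf hcA hc1) S.hsr.symm hℓs (S.hR.to_quotient _) ρU hρU σ hσℓ X
        hX0 hXρ ⊤ (fun _ _ => Subgroup.mem_top _) (fun u _ w _ => by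
          obtain ⟨u, rfl⟩ := QuotientGroup.mk_surjective u
          obtain ⟨w, rfl⟩ := QuotientGroup.mk_surjective w
          rw [Commute, SemiconjBy, ← QuotientGroup.mk_mul, ← QuotientGroup.mk_mul,
            show u * w = w * u from Subtype.ext (hab u u.2 w w.2).eq])
      refine ⟨S.hAR hcA, hc.2, fun u hu => ?_⟩
      have h1 := hfix (QuotientGroup.mk ⟨u, hu⟩) (Subgroup.mem_top _)
      rw [hσ, ← mul_inv_eq_one, ← QuotientGroup.mk_inv, ← QuotientGroup.mk_mul] at h1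
      exact Subgroup.mem_subgroupOf.1 ((QuotientGroup.eq_one_iff _).1 h1)
  set B := K.map R.subtype with hBdef
  -- one operator works for a whole orbit
  suffices h : ∃ B' : Subgroup Γ, Hyper ρ R B' ∧ ∃ c ∈ A, c ≠ 1 ∧ ∀ g ∈ P, c ∈ trivAct R (MulAut.conj g • B') by
    obtain ⟨B', hB', c, hcA, hc1, hc⟩ := h
    set M := R ⊓ ⨅ g : P, MulAut.conj (g : Γ) • B' with hM
    have hMR : M ≤ R := inf_le_left
    have hmem : ∀ z, z ∈ M ↔ z ∈ R ∧ ∀ g ∈ P, z ∈ MulAut.conj g • B' := fun z => by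
      simp [hM, Subgroup.mem_iInf]
    refine S.false_of_trivial hMR (fun h => hne B' hB' ?_) (hRn M hMR) ?_ hcA hc1 ?_
    · refine le_antisymm hB'.1 fun z hz => ?_
      have := ((hmem z).1 (h.ge hz)).2 1 (one_mem P)
      rwa [map_one, one_smul] at this
    · intro w hw
      refine mem_normalizer_of_forall fun z hz => ?_
      rw [hmem] at hz ⊢
      refine ⟨(Subgroup.mem_normalizer_iff.1 (S.hPR hw) _).1 hz.1, fun g hg => ?_⟩
      have := hz.2 _ (mul_mem (inv_mem hw) hg)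
      rw [mem_conj_smul] at this ⊢
      rwa [show g⁻¹ * (w * z * w⁻¹) * g = (w⁻¹ * g)⁻¹ * z * (w⁻¹ * g) by group]
    · refine ⟨S.hAR hcA, mem_normalizer_of_forall fun z hz => ?_, fun u hu => ?_⟩
      · rw [hmem] at hz ⊢
        exact ⟨(Subgroup.mem_normalizer_iff.1 (S.hAR hcA) _).1 hz.1,
          fun g hg => (Subgroup.mem_normalizer_iff.1 (hc g hg).2.1 _).1 (hz.2 g hg)⟩
      · rw [hmem]
        exact ⟨mul_mem ((Subgroup.mem_normalizer_iff.1 (S.hAR hcA) _).1 hu) (inv_mem hu),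
          fun g hg => (hc g hg).2.2 u hu⟩
  obtain ⟨c, hcA, hc1, hc⟩ := htype B hB0
  by_cases hall : ∀ g ∈ P, c ∈ trivAct R (MulAut.conj g • B)
  · exact ⟨B, hB0, c, hcA, hc1, hall⟩
  push Not at hall
  obtain ⟨g, hg, hgc⟩ := hall
  obtain ⟨d, hdA, hd1, hd⟩ := htype _ (hyper_conj hB0 (S.hPR hg))
  have hcd : d ∉ Subgroup.zpowers c := by
    intro h
    refine hgc (Subgroup.zpowers_le.2 hd ?_)
    have : Subgroup.zpowers d = Subgroup.zpowers c := by
      refine Subgroup.eq_of_le_of_card_ge (Subgroup.zpowers_le.2 h) ?_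
      rw [Nat.card_zpowers, Nat.card_zpowers]
      refine (((S.ops.prime_orderOf hcA hc1).eq_one_or_self_of_dvd _ ?_).resolve_left
        fun e => hd1 (orderOf_eq_one_iff.1 e)).ge
      rw [← Nat.card_zpowers c]
      exact Subgroup.orderOf_dvd_natCard _ h
    exact this.ge (Subgroup.mem_zpowers c)
  -- `A` acts on the orbit
  letI : MulAction Γ (Subgroup Γ) := MulAction.compHom _ (MulAut.conj : Γ →* MulAut Γ)
  let O : Set (Subgroup Γ) := {T | ∃ w ∈ P, MulAut.conj w • B = T}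
  have hAO : ∀ a ∈ A, MulAut.conj a • B ∈ O := by
    let F : Submonoid Γ :=
      { carrier := {a | a ∈ A ∧ MulAut.conj a • B ∈ O}
        one_mem' := ⟨one_mem A, 1, one_mem P, rfl⟩
        mul_mem' := fun {a b} ha hb => ⟨mul_mem ha.1 hb.1, by
          obtain ⟨w, hw, hwB⟩ := hb.2
          obtain ⟨w', hw', hwB'⟩ := ha.2
          refine ⟨a * w * a⁻¹ * w', mul_mem ((Subgroup.mem_normalizer_iff.1 (S.hAP ha.1) w).1 hw) hw', ?_⟩
          rw [map_mul, mul_smul, hwB', map_mul MulAut.conj a b, mul_smul, ← hwB, smul_smul, smul_smul, ← map_mul,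
            ← map_mul, inv_mul_cancel_right]⟩ }
    let G : Subgroup Γ :=
      { F with
        inv_mem' := fun {a} ha => by
          have h1 : 1 ≤ orderOf a := orderOf_pos a
          rw [show a⁻¹ = a ^ (orderOf a - 1) from inv_eq_of_mul_eq_one_right (by
            rw [← pow_succ', Nat.sub_add_cancel h1, pow_orderOf_eq_one])]
          exact F.pow_mem ha _ }
    have hle : A ≤ G := by
      rw [← S.ops.sup_eq hdA hcA hc1 hcd]
      refine sup_le (Subgroup.zpowers_le.2 ⟨hcA, 1, one_mem P, ?_⟩) (Subgroup.zpowers_le.2 ⟨hdA, ?_⟩)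
      · rw [map_one, one_smul, map_conj_eq hc.2.1]
      · refine ⟨(d * g * d⁻¹)⁻¹ * g, mul_mem (inv_mem ((Subgroup.mem_normalizer_iff.1 (S.hAP hdA) g).1 hg)) hg, ?_⟩
        have h := map_conj_eq hd.2.1
        rw [map_mul, mul_smul]
        conv_lhs => rw [← h]
        rw [smul_smul, smul_smul, ← map_mul, ← map_mul]
        congr 2
        group
    exact fun a ha => (hle ha).2
  obtain ⟨B1, ⟨h, hh, rfl⟩, hB1⟩ := exists_fixed (α := Subgroup Γ) (A := A) (K := P) S.hAP S.coprime_AP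
    (Or.inl S.ops.solv) O ⟨B, 1, one_mem P, by rw [map_one, one_smul]⟩
    (fun w hw T hT => by
      obtain ⟨w', hw', rfl⟩ := hT
      exact ⟨w * w', mul_mem hw hw', by rw [map_mul, mul_smul]; rfl⟩)
    (fun a ha T hT => by
      obtain ⟨w, hw, rfl⟩ := hT
      obtain ⟨w', hw', hwB⟩ := hAO a ha
      refine ⟨a * w * a⁻¹ * w', mul_mem ((Subgroup.mem_normalizer_iff.1 (S.hAP ha) w).1 hw) hw', ?_⟩
      show _ = MulAut.conj a • MulAut.conj w • B
      rw [map_mul, mul_smul, hwB, smul_smul, smul_smul, ← map_mul, ← map_mul, inv_mul_cancel_right])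
    (by
      rintro _ ⟨w, hw, rfl⟩ _ ⟨w', hw', rfl⟩
      refine ⟨w' * w⁻¹, mul_mem hw' (inv_mem hw), ?_⟩
      show MulAut.conj (w' * w⁻¹) • MulAut.conj w • B = _
      rw [smul_smul, ← map_mul, inv_mul_cancel_right])
  set B1 := MulAut.conj h • B with hB1def
  have hB1H : Hyper ρ R B1 := hyper_conj hB0 (S.hPR hh)
  have hAB1 : A ≤ Subgroup.normalizer (B1 : Set Γ) := le_normalizer_of_conj_eq fun a ha => hB1 a ha
  refine ⟨B1, hB1H, x, S.ops.hx, S.ops.x_ne_one, fun w hw => ?_⟩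
  obtain ⟨e, heA, he1, he⟩ := htype _ (hyper_conj hB1H (S.hPR hw))
  by_cases heX : e ∈ Subgroup.zpowers x
  · exact Subgroup.zpowers_le.2 he ((S.ops.zpowers_eq he1 heX).ge (Subgroup.mem_zpowers x))
  exfalso
  -- `e` is trivial on `R / B1`
  set T := Subgroup.normalizer (R : Set Γ) ⊓ Subgroup.normalizer (B1 : Set Γ) with hT
  obtain ⟨φ, hφker⟩ := hφ B1 T inf_le_left inf_le_right
  have heT : e ∈ T := ⟨S.hAR heA, hAB1 heA⟩
  have huT : w⁻¹ * e * w ∈ trivAct R B1 := by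
    refine ⟨mul_mem (mul_mem (inv_mem (S.hPR hw)) (S.hAR heA)) (S.hPR hw), mem_normalizer_of_forall fun z hz => ?_,
      fun u hu => ?_⟩
    · have h1 := (Subgroup.mem_normalizer_iff.1 he.2.1 _).1 (conj_mem_conj_smul (g := w) hz)
      rw [mem_conj_smul] at h1
      simpa [mul_assoc] using h1
    · have h1 := he.2.2 _ ((Subgroup.mem_normalizer_iff.1 (S.hPR hw) u).1 hu)
      rw [mem_conj_smul] at h1
      simpa [mul_assoc] using h1
  have huT' : w⁻¹ * e * w ∈ T := ⟨huT.1, huT.2.1⟩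
  have h1 : φ ⟨_, huT'⟩ = 1 := (hφker _).2 huT
  set v : T := ⟨_, huT'⟩ * ⟨e, heT⟩⁻¹ with hv
  have hvP : (v : Γ) ∈ P := by
    show w⁻¹ * e * w * e⁻¹ ∈ P
    rw [mul_assoc w⁻¹, mul_assoc w⁻¹]
    exact mul_mem (inv_mem hw) (by simpa [mul_assoc] using (Subgroup.mem_normalizer_iff.1 (S.hAP heA) w).1 hw)
  obtain ⟨k, hk⟩ := S.hP ⟨_, hvP⟩
  have hv1 : φ ⟨e, heT⟩ ^ t ^ k = 1 := by
    have h2 : φ v ^ t ^ k = 1 := by
      rw [← map_pow, show v ^ t ^ k = 1 from Subtype.ext (by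
        rw [SubgroupClass.coe_pow]; exact congrArg Subtype.val hk), map_one]
    rwa [hv, map_mul, h1, one_mul, map_inv, inv_pow, inv_eq_one] at h2
  have hv2 : φ ⟨e, heT⟩ ^ orderOf e = 1 := by
    rw [← map_pow, show (⟨e, heT⟩ : T) ^ orderOf e = 1 from Subtype.ext (pow_orderOf_eq_one e), map_one]
  have hcop : (t ^ k).Coprime (orderOf e) := by
    refine Nat.Coprime.pow_left k ((Nat.coprime_primes S.ht (S.ops.prime_orderOf heA he1)).2 ?_)
    rcases S.ops.orderOf_cases heA he1 with h | h <;> rw [h]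
    exacts [S.hpt.symm, S.hqt.symm]
  have he' : φ ⟨e, heT⟩ = 1 := orderOf_eq_one_iff.1 (Nat.eq_one_of_dvd_coprimes hcop
    (orderOf_dvd_of_pow_eq_one hv1) (orderOf_dvd_of_pow_eq_one hv2))
  exact heX (hyfix B1 hB1H hAB1 e heA ((hφker _).1 he'))

end Reduced

end CfsgLib.FpfPQ
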