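import Mathlib
import Cfsg.Agent.FpfPQ.CaseOne
import Cfsg.Agent.FpfRankTwo.Core
import Cfsg.Agent.ExtraFpf.ConjRep

/-!
The configuration is impossible; the statement for subgroups of a group on which `A` acts.
-/

set_option autoImplicit false

namespace CfsgLib.FpfPQ

open scoped commutatorElement
open scoped IsMulCommutative
open CfsgLib.CoprimeAction

variable {Γ : Type*} [Group Γ] [Finite Γ]

section Setup

variable {r : ℕ} [Fact r.Prime] {U : Type*} [AddCommGroup U] [Module (ZMod r) U]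
  {s t p q : ℕ} {ρ : Γ →* Module.End (ZMod r) U} {A P R : Subgroup Γ} {x y : Γ}

theorem Setup.mono (S : Setup s t p q ρ A P R x y) {P1 R1 : Subgroup Γ} (hP : P1 ≤ P) (hR : R1 ≤ R)
    (hAP : A ≤ Subgroup.normalizer (P1 : Set Γ)) (hAR : A ≤ Subgroup.normalizer (R1 : Set Γ))
    (hPR : P1 ≤ Subgroup.normalizer (R1 : Set Γ)) : Setup s t p q ρ A P1 R1 x y :=
  { S with
    hR := S.hR.to_le hR
    hP := S.hP.to_le hP
    hAR := hAR
    hAP := hAP
    hPR := hPR
    fixR := fun g hg => S.fixR g (hR hg)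
    fixP := fun g hg => S.fixP g (hP hg)
    faith := fun g hg => S.faith g (hR hg)
    comm := fun u hu w hw => S.comm u (hR hu) w (hP hw) }

/-- The configuration forces `P` to centralise `R`. -/
theorem Setup.le_centralizer [Finite U] (S : Setup s t p q ρ A P R x y) :
    P ≤ Subgroup.centralizer (R : Set Γ) := by
  by_contra hne
  obtain ⟨P1, ⟨hP1, hAP1, hne1⟩, hP1min⟩ := Set.Finite.exists_minimal
    (s := {L : Subgroup Γ | L ≤ P ∧ A ≤ Subgroup.normalizer (L : Set Γ) ∧
      ¬ L ≤ Subgroup.centralizer (R : Set Γ)}) (Set.toFinite _) ⟨P, le_rfl, S.hAP, hne⟩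
  obtain ⟨R1, ⟨hR1, hAR1, hPR1, hne2⟩, hR1min⟩ := Set.Finite.exists_minimal
    (s := {L : Subgroup Γ | L ≤ R ∧ A ≤ Subgroup.normalizer (L : Set Γ) ∧
      P1 ≤ Subgroup.normalizer (L : Set Γ) ∧ ¬ P1 ≤ Subgroup.centralizer (L : Set Γ)}) (Set.toFinite _)
    ⟨R, le_rfl, S.hAR, hP1.trans S.hPR, hne1⟩
  have S1 := S.mono hP1 hR1 hAP1 hAR1 hPR1
  have hsmallP : ∀ L : Subgroup Γ, L ≤ P1 → A ≤ Subgroup.normalizer (L : Set Γ) → L ≠ P1 →
      L ≤ Subgroup.centralizer (R1 : Set Γ) := by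
    intro L hL hAL hLne
    by_contra hc
    refine hLne (le_antisymm hL (hP1min ⟨hL.trans hP1, hAL, fun h => hc ?_⟩ hL))
    exact h.trans (Subgroup.centralizer_le hR1)
  have hsmallR : ∀ L : Subgroup Γ, L ≤ R1 → A ≤ Subgroup.normalizer (L : Set Γ) →
      P1 ≤ Subgroup.normalizer (L : Set Γ) → L ≠ R1 → P1 ≤ Subgroup.centralizer (L : Set Γ) := by
    intro L hL hAL hPL hLne
    by_contra hc
    exact hLne (le_antisymm hL (hR1min ⟨hL.trans hR1, hAL, hPL, hc⟩ hL))
  haveI := Fact.mk S.hs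
  haveI := Fact.mk S.ht
  haveI := S1.hP.isNilpotent
  haveI := S1.hR.isNilpotent
  have hPA : ⁅P1, A⁆ = P1 := by
    have hbot : P1 ⊓ Subgroup.centralizer (A : Set Γ) = ⊥ := eq_bot_iff.2 fun g hg =>
      Subgroup.mem_bot.2 (S1.fixP g hg.1 fun a ha => Subgroup.mem_centralizer_iff.1 hg.2 a ha)
    have h := commutator_sup_centralizer hAP1 S1.coprime_AP (Or.inl S.ops.solv)
    rwa [hbot, sup_bot_eq] at h
  have hXA : Subgroup.zpowers x ≤ A := Subgroup.zpowers_le.2 S.ops.hx
  have hdich : (∀ w ∈ P1, Commute x w) ∨ ⁅P1, Subgroup.zpowers x⁆ = P1 := by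
    by_contra hcon
    push Not at hcon
    obtain ⟨⟨w0, hw0, hw0x⟩, hX⟩ := hcon
    set X := Subgroup.zpowers x with hXdef
    have hXP : X ≤ Subgroup.normalizer (P1 : Set Γ) := hXA.trans hAP1
    have h1 : ⁅P1, X⁆ ≤ Subgroup.centralizer (R1 : Set Γ) :=
      hsmallP _ (commutator_le_of_normalizer hXP)
        (fun a ha => CfsgLib.FpfRankTwo.mem_normalizer_commutator (hAP1 ha) (S.ops.norm ha)) hX
    have h2 : P1 ⊓ Subgroup.centralizer (X : Set Γ) ≤ Subgroup.centralizer (R1 : Set Γ) := by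
      refine hsmallP _ inf_le_left (fun a ha => Subgroup.inf_normalizer_le_normalizer_inf
        ⟨hAP1 ha, CfsgLib.FpfRankTwo.mem_normalizer_centralizer (S.ops.norm ha)⟩) fun h => hw0x ?_
      exact Subgroup.mem_centralizer_iff.1 (h.ge hw0).2 x (Subgroup.mem_zpowers x)
    have h := commutator_sup_centralizer hXP (S1.coprime_AP.coprime_dvd_left (Subgroup.card_dvd_of_le hXA))
      (Or.inl (Setup.solvable_zpowers x))
    exact hne2 (h.ge.trans (sup_le h1 h2))
  have hRP : ⁅R1, P1⁆ = R1 := by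
    by_contra h
    have h1 := hsmallR _ (commutator_le_of_normalizer hPR1)
      (fun a ha => CfsgLib.FpfRankTwo.mem_normalizer_commutator (hAR1 ha) (hAP1 ha))
      (fun a ha => CfsgLib.FpfRankTwo.mem_normalizer_commutator (hPR1 ha) (Subgroup.le_normalizer ha)) h
    have h2 : ⁅⁅R1, P1⁆, P1⁆ = ⊥ := by
      rw [Subgroup.commutator_comm, Subgroup.commutator_eq_bot_iff_le_centralizer]; exact h1
    rw [commutator_commutator_eq hPR1 S1.coprime_PR (Or.inl inferInstance), Subgroup.commutator_comm,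
      Subgroup.commutator_eq_bot_iff_le_centralizer] at h2
    exact hne2 h2
  have hRnt : Nontrivial R1 := (Subgroup.nontrivial_iff_ne_bot R1).2 fun h => hne2 fun w _ =>
    Subgroup.mem_centralizer_iff.2 fun u hu => by rw [h] at hu; rw [Subgroup.mem_bot.1 hu, one_mul, mul_one]
  have hPnt : Nontrivial P1 := (Subgroup.nontrivial_iff_ne_bot P1).2 fun h => hne2 (h ▸ bot_le)
  have hfrat : (frattini R1).map R1.subtype ≤ Subgroup.centralizer (P1 : Set Γ) := by
    set Φ := (frattini R1).map R1.subtype with hΦ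
    have hN : ∀ g ∈ Subgroup.normalizer (R1 : Set Γ), g ∈ Subgroup.normalizer (Φ : Set Γ) := by
      intro g hg
      refine mem_normalizer_of_forall ?_
      rintro _ ⟨v, hv, rfl⟩
      exact ⟨R1.normalizerMonoidHom ⟨g, hg⟩ v, Subgroup.characteristic_iff_map_le.1
        (inferInstance : (frattini R1).Characteristic) _ ⟨v, hv, rfl⟩, rfl⟩
    refine Subgroup.le_centralizer_iff.1 (hsmallR Φ (Subgroup.map_subtype_le _) (fun a ha => hN a (hAR1 ha))
      (fun a ha => hN a (hPR1 ha)) fun h => ?_)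
    have h' : frattini R1 = ⊤ := by
      apply Subgroup.map_injective R1.subtype_injective
      rw [← hΦ, h, ← MonoidHom.range_eq_map, Subgroup.range_subtype]
    have hbt : (⊥ : Subgroup R1) = ⊤ := frattini_nongenerating (by rw [h', sup_top_eq])
    exact bot_ne_top hbt
  have hPab : ⁅P1, P1⁆ ≤ Subgroup.centralizer (R1 : Set Γ) := by
    refine hsmallP _ (Subgroup.commutator_le.2 fun a ha b hb =>
        mul_mem (mul_mem (mul_mem ha hb) (inv_mem ha)) (inv_mem hb))
      (fun a ha => CfsgLib.FpfRankTwo.mem_normalizer_commutator (hAP1 ha) (hAP1 ha)) fun h => ?_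
    have hlt := Group.IsSolvable.commutator_lt_top_of_nontrivial (G := P1)
    refine hlt.ne (Subgroup.map_injective P1.subtype_injective ?_)
    rw [commutator_def, Subgroup.map_commutator, ← MonoidHom.range_eq_map, Subgroup.range_subtype, h]
  have SR : Reduced s t p q ρ A P1 R1 x y :=
    { toSetup := S1, hne := hne2, hPA := hPA, hdich := hdich, hRP := hRP, hfrat := hfrat, hPab := hPab }
  by_cases hab : ∀ u ∈ R1, ∀ v ∈ R1, Commute u v
  · exact SR.false_of_abelian hab
  · exact SR.false_of_nonabelian hab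

end Setup

section Ambient

variable {A K : Subgroup Γ} {x y : Γ} {p q : ℕ}

/-- Elements of coprime prime power order centralised by the kernel of the operator group commute. -/
theorem Ops.commute (O : Ops A x y p q) (hAK : A ≤ Subgroup.normalizer (K : Set Γ))
    (hfix : ∀ g ∈ K, (∀ a ∈ A, Commute a g) → g = 1) {s t : ℕ} (hs : s.Prime) (ht : t.Prime) (hst : s ≠ t)
    {X Y : Subgroup Γ} (hX : X ≤ K) (hY : Y ≤ K) (hXs : IsPGroup s X) (hYt : IsPGroup t Y)
    {u w : Γ} (hu : u ∈ X) (hw : w ∈ Y) (hxu : Commute x u) (hxw : Commute x w) : Commute u w := by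
  haveI := Fact.mk hs
  haveI := Fact.mk ht
  set T : Subgroup Γ := K ⊓ Subgroup.centralizer ((Subgroup.zpowers x : Subgroup Γ) : Set Γ) with hT
  have hyT : y ∈ Subgroup.normalizer (T : Set Γ) := Subgroup.inf_normalizer_le_normalizer_inf
    ⟨hAK O.hy, CfsgLib.FpfRankTwo.mem_normalizer_centralizer (O.norm O.hy)⟩
  set α : MulAut T := T.normalizerMonoidHom ⟨y, hyT⟩ with hα
  have hαq : α ^ q = 1 := by
    rw [hα, ← map_pow, show (⟨y, hyT⟩ : Subgroup.normalizer (T : Set Γ)) ^ q = 1 from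
      Subtype.ext (by rw [SubgroupClass.coe_pow, ← O.oy, pow_orderOf_eq_one]; rfl), map_one]
  have hf : MonoidHom.FixedPointFree (α : T → T) := by
    intro z hz
    have h1 : y * (z : Γ) * y⁻¹ = z := congrArg Subtype.val hz
    refine Subtype.ext (hfix _ z.2.1 fun a ha => ?_)
    have hle : A ≤ Subgroup.centralizer ({(z : Γ)} : Set Γ) := by
      rw [← O.sup_eq O.hy O.hx O.x_ne_one O.y_not_mem]
      exact sup_le
        (fun e he => Subgroup.mem_centralizer_singleton_iff.2 (Subgroup.mem_centralizer_iff.1 z.2.2 e he))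
        (Subgroup.zpowers_le.2 (Subgroup.mem_centralizer_singleton_iff.2 (mul_inv_eq_iff_eq_mul.1 h1)))
    exact Subgroup.mem_centralizer_singleton_iff.1 (hle ha)
  haveI := CfsgLib.ZJ.isNilpotent_of_fixedPointFree O.hq hf hαq
  have hmem : ∀ z, Commute x z → z ∈ Subgroup.centralizer ((Subgroup.zpowers x : Subgroup Γ) : Set Γ) := by
    intro z hz
    rw [Subgroup.mem_centralizer_iff]
    intro e he
    obtain ⟨i, rfl⟩ := Subgroup.mem_zpowers_iff.1 he
    exact (hz.zpow_left i).eq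
  exact CfsgLib.Hall.commute_of_nilpotent_le T hst (A := X ⊓ T) (B := Y ⊓ T) inf_le_right inf_le_right
    (hXs.to_le inf_le_left) (hYt.to_le inf_le_left) u ⟨hu, hX hu, hmem u hxu⟩ w ⟨hw, hY hw, hmem w hxw⟩

theorem Ops.subgroupOf (O : Ops A x y p q) {N : Subgroup Γ} (hN : A ≤ N) :
    Ops (A.subgroupOf N) (⟨x, hN O.hx⟩ : N) ⟨y, hN O.hy⟩ p q where
  hp := O.hp
  hq := O.hq
  hpq := O.hpq
  hx := Subgroup.mem_subgroupOf.2 O.hx
  hy := Subgroup.mem_subgroupOf.2 O.hy
  ox := by rw [← Subgroup.orderOf_coe]; exact O.ox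
  oy := by rw [← Subgroup.orderOf_coe]; exact O.oy
  card := by rw [Nat.card_congr (Subgroup.subgroupOfEquivOfLe hN).toEquiv]; exact O.card
  norm := fun a ha => mem_normalizer_of_forall fun u hu => by
    obtain ⟨i, rfl⟩ := Subgroup.mem_zpowers_iff.1 hu
    obtain ⟨j, hj⟩ := Subgroup.mem_zpowers_iff.1
      ((Subgroup.mem_normalizer_iff.1 (O.norm (Subgroup.mem_subgroupOf.1 ha)) (x ^ i)).1
        (Subgroup.zpow_mem_zpowers x i))
    exact Subgroup.mem_zpowers_iff.2 ⟨j, Subtype.ext (by simpa using hj)⟩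
  nc := fun h => O.nc (congrArg Subtype.val h)
  solv := by
    haveI := O.solv
    exact Group.isSolvable_of_surjective (f := (Subgroup.subgroupOfEquivOfLe hN).symm.toMonoidHom)
      (MulEquiv.surjective _)

/-- The core statement for subgroups. -/
theorem Ops.core (O : Ops A x y p q) (hAK : A ≤ Subgroup.normalizer (K : Set Γ))
    (hcop : (Nat.card A).Coprime (Nat.card K))
    (hfix : ∀ g ∈ K, (∀ a ∈ A, Commute a g) → g = 1)
    {r s t : ℕ} (hr : r.Prime) (hs : s.Prime) (ht : t.Prime) (hsr : s ≠ r) (hts : t ≠ s)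
    (V P R : Subgroup Γ) [IsMulCommutative V] (hVK : V ≤ K) (hPK : P ≤ K) (hRK : R ≤ K)
    (hVexp : ∀ v ∈ V, v ^ r = 1) (hR : IsPGroup s R) (hP : IsPGroup t P)
    (hAV : A ≤ Subgroup.normalizer (V : Set Γ)) (hPV : P ≤ Subgroup.normalizer (V : Set Γ))
    (hRV : R ≤ Subgroup.normalizer (V : Set Γ))
    (hAP : A ≤ Subgroup.normalizer (P : Set Γ)) (hAR : A ≤ Subgroup.normalizer (R : Set Γ))
    (hPR : P ≤ Subgroup.normalizer (R : Set Γ))
    (hfaith : ∀ u ∈ R, (∀ v ∈ V, Commute u v) → u = 1) : P ≤ Subgroup.centralizer (R : Set Γ) := by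
  by_contra hne
  haveI := Fact.mk hr
  have hdvd : ∀ {v : ℕ} (M : Subgroup Γ), v.Prime → M ≤ K → IsPGroup v M → M ≠ ⊥ → v ∣ Nat.card K := by
    intro v M hv hMK hMv hM1
    haveI := Fact.mk hv
    obtain ⟨k, hk⟩ := hMv.exists_card_eq
    refine Dvd.dvd.trans ?_ (Subgroup.card_dvd_of_le hMK)
    rw [hk]
    refine dvd_pow_self v fun h0 => hM1 ?_
    rw [h0, pow_zero] at hk
    exact Subgroup.eq_bot_of_card_eq M hk
  have hR1 : R ≠ ⊥ := fun h => hne fun w _ => Subgroup.mem_centralizer_iff.2 fun u hu => by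
    rw [h] at hu; rw [Subgroup.mem_bot.1 hu, one_mul, mul_one]
  have hP1 : P ≠ ⊥ := fun h => hne (h ▸ bot_le)
  have hV1 : V ≠ ⊥ := fun h => hR1 (eq_bot_iff.2 fun u hu => Subgroup.mem_bot.2 (hfaith u hu fun v hv => by
    rw [h] at hv; rw [Subgroup.mem_bot.1 hv]; exact Commute.one_right u))
  have hVr : IsPGroup r V := fun v => ⟨1, Subtype.ext (by simpa using hVexp v v.2)⟩
  rw [O.card] at hcop
  have hnd : ∀ {v : ℕ}, v.Prime → v ∣ Nat.card K → p ≠ v ∧ q ≠ v := fun {v} hv hd =>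
    ⟨fun e => O.hp.coprime_iff_not_dvd.1 hcop.coprime_mul_right (e ▸ hd),
      fun e => O.hq.coprime_iff_not_dvd.1 hcop.coprime_mul_left (e ▸ hd)⟩
  obtain ⟨hps, hqs⟩ := hnd hs (hdvd R hs hRK hR hR1)
  obtain ⟨hpt, hqt⟩ := hnd ht (hdvd P ht hPK hP hP1)
  obtain ⟨hpr, hqr⟩ := hnd hr (hdvd V hr hVK hVr hV1)
  letI : Module (ZMod r) (Additive V) := AddCommGroup.zmodModule fun v => by
    apply Additive.toMul.injective
    exact Subtype.ext (by simpa using hVexp _ (Additive.toMul v).2)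
  set N := Subgroup.normalizer (V : Set Γ) with hN
  have hnorm : ∀ (T M : Subgroup Γ), T ≤ N → M ≤ N → T ≤ Subgroup.normalizer (M : Set Γ) →
      T.subgroupOf N ≤ Subgroup.normalizer ((M.subgroupOf N : Subgroup N) : Set N) := fun T M _ _ h a ha =>
    mem_normalizer_of_forall fun z hz =>
      Subgroup.mem_subgroupOf.2 ((Subgroup.mem_normalizer_iff.1 (h (Subgroup.mem_subgroupOf.1 ha)) _).1
        (Subgroup.mem_subgroupOf.1 hz))
  have S : Setup s t p q (CfsgLib.ExtraFpf.conjRep V r) (A.subgroupOf N) (P.subgroupOf N) (R.subgroupOf N)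
      (⟨x, hAV O.hx⟩ : N) ⟨y, hAV O.hy⟩ :=
    { ops := O.subgroupOf hAV
      hs := hs
      ht := ht
      hsr := hsr
      hts := hts
      hps := hps
      hqs := hqs
      hpt := hpt
      hqt := hqt
      hpr := hpr
      hqr := hqr
      hR := hR.comap_of_injective N.subtype N.subtype_injective
      hP := hP.comap_of_injective N.subtype N.subtype_injective
      hAR := hnorm A R hAV hRV hAR
      hAP := hnorm A P hAV hPV hAP
      hPR := hnorm P R hPV hRV hPR
      fixU := fun u hu => by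
        apply Additive.toMul.injective
        refine Subtype.ext (hfix _ (hVK (Additive.toMul u).2) fun a ha => ?_)
        have h := congrArg (fun v : Additive V => ((Additive.toMul v : V) : Γ))
          (hu ⟨a, hAV ha⟩ (Subgroup.mem_subgroupOf.2 ha))
        simp only [CfsgLib.ExtraFpf.conjRep_apply] at h
        exact mul_inv_eq_iff_eq_mul.1 h
      fixR := fun g hg h => Subtype.ext (hfix _ (hRK (Subgroup.mem_subgroupOf.1 hg)) fun a ha =>
        congrArg Subtype.val (h ⟨a, hAV ha⟩ (Subgroup.mem_subgroupOf.2 ha)).eq)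
      fixP := fun g hg h => Subtype.ext (hfix _ (hPK (Subgroup.mem_subgroupOf.1 hg)) fun a ha =>
        congrArg Subtype.val (h ⟨a, hAV ha⟩ (Subgroup.mem_subgroupOf.2 ha)).eq)
      faith := fun g hg h => Subtype.ext (hfaith _ (Subgroup.mem_subgroupOf.1 hg) fun v hv =>
        (Subgroup.mem_centralizer_iff.1 ((CfsgLib.ExtraFpf.conjRep_eq_one V r g).1 h) v hv).symm)
      comm := fun u hu w hw hxu hxw => Subtype.ext (O.commute hAK hfix hs ht hts.symm hRK hPK hR hP
        (Subgroup.mem_subgroupOf.1 hu) (Subgroup.mem_subgroupOf.1 hw)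
        (congrArg Subtype.val hxu.eq) (congrArg Subtype.val hxw.eq)).eq }
  apply hne
  intro w hw
  rw [Subgroup.mem_centralizer_iff]
  intro u hu
  exact congrArg Subtype.val (Subgroup.mem_centralizer_iff.1
    (S.le_centralizer (show (⟨w, hPV hw⟩ : N) ∈ P.subgroupOf N from hw)) ⟨u, hRV hu⟩ hu)

end Ambient

end CfsgLib.FpfPQ
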