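import Mathlib
import Cfsg.Agent.FpfPQ.Minimal
import Cfsg.Agent.FpfRankTwo.Main

/-!
Reduction of "Fitting height at most two" to the statement about one elementary module.
-/

set_option autoImplicit false

namespace CfsgLib.FpfPQ

open scoped commutatorElement
open CfsgLib.CoprimeAction
open CfsgLib.FpfRankTwo (restrictAct exists_invariant_sylow_le map_eq_of_invariant lcs_top_map eq_bot_of_lcs isNilpotent_mono mem_normalizer_centralizer mem_normalizer_of_forall_commute)

universe u v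

variable {A : Type v} [Group A] [Finite A]

theorem exists_isNilpotent_lcs_of_core (hAsol : Group.IsSolvable A)
    (hcore : ∀ (G : Type u) [Group G] [Finite G] (φ : A →* MulAut G), (Nat.card A).Coprime (Nat.card G) →
      (∀ g : G, (∀ a : A, φ a g = g) → g = 1) → ∀ {r s t : ℕ}, r.Prime → s.Prime → t.Prime → s ≠ r → t ≠ s →
      ∀ (V P R : Subgroup G), (∀ v ∈ V, ∀ w ∈ V, v * w = w * v) → (∀ v ∈ V, v ^ r = 1) → IsPGroup s R →
        IsPGroup t P → V.Normal → (∀ a, ∀ x ∈ V, φ a x ∈ V) → (∀ a, ∀ x ∈ P, φ a x ∈ P) →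
        (∀ a, ∀ x ∈ R, φ a x ∈ R) → P ≤ Subgroup.normalizer (R : Set G) →
        (∀ u ∈ R, (∀ v ∈ V, Commute u v) → u = 1) → P ≤ Subgroup.centralizer (R : Set G))
    (n : ℕ) :
    ∀ (G : Type u) [Group G] [Finite G], Nat.card G = n → Group.IsSolvable G →
    ∀ (φ : A →* MulAut G), (Nat.card A).Coprime (Nat.card G) →
      (∀ g : G, (∀ a : A, φ a g = g) → g = 1) →
      ∃ k, Group.IsNilpotent ↥((⊤ : Subgroup G).lowerCentralSeries k) := by
  induction n using Nat.strong_induction_on with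
  | _ n ih =>
  intro G _ _ hn hG φ hcop hfpf
  classical
  subst hn
  by_cases htriv : (⊤ : Subgroup G) = ⊥
  · exact ⟨0, by rw [Subgroup.lowerCentralSeries_zero, htriv]; infer_instance⟩
  -- quotients
  have hquot : ∀ (L : Subgroup G) [L.Normal], (∀ a, ∀ x ∈ L, φ a x ∈ L) → L ≠ ⊥ →
      ∃ k, Group.IsNilpotent ↥((⊤ : Subgroup (G ⧸ L)).lowerCentralSeries k) := by
    intro L _ hL hL1
    let φL : A →* MulAut (G ⧸ L) :=
      { toFun := fun a => QuotientGroup.congr L L (φ a) (map_eq_of_invariant φ L hL a)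
        map_one' := MulEquiv.ext fun x => by
          obtain ⟨g, rfl⟩ := QuotientGroup.mk_surjective x
          show ((φ 1 g : G) : G ⧸ L) = (g : G ⧸ L)
          rw [map_one]; rfl
        map_mul' := fun a b => MulEquiv.ext fun x => by
          obtain ⟨g, rfl⟩ := QuotientGroup.mk_surjective x
          show ((φ (a * b) g : G) : G ⧸ L) = ((φ a (φ b g) : G) : G ⧸ L)
          rw [map_mul]; rfl }
    have hlt : Nat.card (G ⧸ L) < Nat.card G := by
      rw [Subgroup.card_eq_card_quotient_mul_card_subgroup L]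
      exact lt_mul_of_one_lt_right Nat.card_pos ((Subgroup.one_lt_card_iff_ne_bot L).2 hL1)
    refine ih _ hlt (G ⧸ L) rfl inferInstance φL (hcop.coprime_dvd_right (Subgroup.card_quotient_dvd_card L)) fun x hx => ?_
    obtain ⟨g, rfl⟩ := QuotientGroup.mk_surjective x
    obtain ⟨m, hm, hfix⟩ := exists_fixed_of_coset φ hL (hcop.coprime_dvd_right (Subgroup.card_subgroup_dvd_card L))
      (Or.inl hAsol) (k := g) fun a => by
        have h : ((φ a g : G) : G ⧸ L) = (g : G ⧸ L) := hx a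
        rw [QuotientGroup.eq] at h
        have := (inferInstance : L.Normal).conj_mem _ (inv_mem h) g
        simpa [mul_assoc] using this
    have hmg := hfpf _ hfix
    rw [mul_eq_one_iff_eq_inv] at hmg
    exact (QuotientGroup.eq_one_iff g).2 (inv_mem_iff.1 (hmg ▸ hm))
  obtain ⟨N, ⟨hNn, hNi, hN1⟩, hmin⟩ := Set.Finite.exists_minimal
    (s := {N : Subgroup G | N.Normal ∧ (∀ a, ∀ x ∈ N, φ a x ∈ N) ∧ N ≠ ⊥}) (Set.toFinite _)
    ⟨⊤, inferInstance, fun a x _ => Subgroup.mem_top _, htriv⟩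
  haveI := hNn
  have hmin' : ∀ M : Subgroup G, M.Normal → (∀ a, ∀ x ∈ M, φ a x ∈ M) → M ≤ N → M = ⊥ ∨ M = N :=
    fun M h1 h2 h3 => by
      rcases eq_or_ne M ⊥ with e | e
      · exact Or.inl e
      · exact Or.inr (le_antisymm h3 (hmin ⟨h1, h2, e⟩ h3))
  obtain ⟨k, hk⟩ := hquot N hNi hN1
  by_cases hsecond : ∃ L : Subgroup G, L.Normal ∧ (∀ a, ∀ x ∈ L, φ a x ∈ L) ∧ L ≠ ⊥ ∧ N ⊓ L = ⊥
  · obtain ⟨L, hLn, hLi, hL1, hNL⟩ := hsecond
    haveI := hLn
    obtain ⟨k2, hk2⟩ := hquot L hLi hL1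
    haveI h1 : Group.IsNilpotent ↥((⊤ : Subgroup (G ⧸ N)).lowerCentralSeries (max k k2)) :=
      haveI := hk; isNilpotent_mono ((Subgroup.lowerCentralSeries_antitone (S := (⊤ : Subgroup _))) (le_max_left k k2))
    haveI h2 : Group.IsNilpotent ↥((⊤ : Subgroup (G ⧸ L)).lowerCentralSeries (max k k2)) :=
      haveI := hk2; isNilpotent_mono ((Subgroup.lowerCentralSeries_antitone (S := (⊤ : Subgroup _))) (le_max_right k k2))
    refine ⟨max k k2, ?_⟩
    set R := (⊤ : Subgroup G).lowerCentralSeries (max k k2) with hR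
    let f1 : R →* (⊤ : Subgroup (G ⧸ N)).lowerCentralSeries (max k k2) :=
      ((QuotientGroup.mk' N).comp R.subtype).codRestrict _ fun x =>
        (lcs_top_map (QuotientGroup.mk' N) (QuotientGroup.mk'_surjective N) _).le ⟨x, x.2, rfl⟩
    let f2 : R →* (⊤ : Subgroup (G ⧸ L)).lowerCentralSeries (max k k2) :=
      ((QuotientGroup.mk' L).comp R.subtype).codRestrict _ fun x =>
        (lcs_top_map (QuotientGroup.mk' L) (QuotientGroup.mk'_surjective L) _).le ⟨x, x.2, rfl⟩
    refine Subgroup.isNilpotent_of_ker_le_center (f1.prod f2) fun x hx => ?_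
    rw [MonoidHom.mem_ker] at hx
    have h1' : (x : G) ∈ N := (QuotientGroup.eq_one_iff _).1 (congrArg Subtype.val (congrArg Prod.fst hx))
    have h2' : (x : G) ∈ L := (QuotientGroup.eq_one_iff _).1 (congrArg Subtype.val (congrArg Prod.snd hx))
    have : (x : G) = 1 := Subgroup.mem_bot.1 (hNL ▸ ⟨h1', h2'⟩)
    rw [show x = 1 from Subtype.ext this]
    exact one_mem _
  push_neg at hsecond
  have huniq : ∀ L : Subgroup G, L.Normal → (∀ a, ∀ x ∈ L, φ a x ∈ L) → L ≠ ⊥ → N ≤ L := by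
    intro L hLn hLi hL1
    haveI := hLn
    rcases hmin' (N ⊓ L) inferInstance (fun a x hx => ⟨hNi a x hx.1, hLi a x hx.2⟩) inf_le_left with h | h
    · exact absurd h (hsecond L hLn hLi hL1)
    · exact inf_eq_left.1 h
  -- `N` is an abelian `r`-group
  have hNsol : Group.IsSolvable N := inferInstance
  have hNab : ∀ x ∈ N, ∀ y ∈ N, x * y = y * x := by
    rcases hmin' ⁅N, N⁆ inferInstance (fun a x hx => by
      have : (⁅N, N⁆ : Subgroup G).map (φ a).toMonoidHom ≤ ⁅N, N⁆ := by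
        rw [Subgroup.map_commutator, map_eq_of_invariant φ N hNi a]
      exact this ⟨x, hx, rfl⟩) (Subgroup.commutator_le_left N N) with h | h
    · intro x hx y hy
      exact (Subgroup.mem_centralizer_iff.1 (Subgroup.commutator_eq_bot_iff_le_centralizer.1 h hx) y hy).symm
    · exfalso
      haveI : Nontrivial N := (Subgroup.nontrivial_iff_ne_bot N).2 hN1
      have hlt := Group.IsSolvable.commutator_lt_top_of_nontrivial (G := N)
      refine hlt.ne (Subgroup.map_injective N.subtype_injective ?_)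
      rw [commutator_def, Subgroup.map_commutator, ← MonoidHom.range_eq_map, Subgroup.range_subtype, h]
  obtain ⟨r, hr, hrd⟩ := Nat.exists_prime_and_dvd (fun e => hN1 (Subgroup.eq_bot_of_card_eq N e))
  haveI := Fact.mk hr
  have hNexp : ∀ x ∈ N, x ^ r = 1 := by
    let M : Subgroup G :=
      { carrier := {x | x ∈ N ∧ x ^ r = 1}
        one_mem' := ⟨one_mem N, one_pow r⟩
        mul_mem' := fun {a b} ha hb => ⟨mul_mem ha.1 hb.1, by
          rw [Commute.mul_pow (hNab a ha.1 b hb.1), ha.2, hb.2, mul_one]⟩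
        inv_mem' := fun {a} ha => ⟨inv_mem ha.1, by rw [inv_pow, ha.2, inv_one]⟩ }
    rcases hmin' M ⟨fun a ha g => ⟨hNn.conj_mem a ha.1 g, by rw [conj_pow, ha.2, mul_one, mul_inv_cancel]⟩⟩
      (fun a x hx => ⟨hNi a x hx.1, by rw [← map_pow, hx.2, map_one]⟩) (fun x hx => hx.1) with h | h
    · exfalso
      obtain ⟨x, hx⟩ := exists_prime_orderOf_dvd_card' (G := N) r hrd
      have hmem : (x : G) ∈ M := ⟨x.2, by rw [← SubgroupClass.coe_pow, ← hx, pow_orderOf_eq_one]; rfl⟩
      rw [h, Subgroup.mem_bot] at hmem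
      exact hr.ne_one (by rw [← hx, orderOf_eq_one_iff]; exact Subtype.ext hmem)
    · intro x hx
      exact (h ▸ hx : x ∈ M).2
  have hNr : IsPGroup r N := fun x => ⟨1, Subtype.ext (by simpa using hNexp x x.2)⟩
  -- stabilised term
  have hex : ∃ c : ℕ, ∃ m ≥ k, Nat.card ↥((⊤ : Subgroup G).lowerCentralSeries m) = c := ⟨_, k, le_rfl, rfl⟩
  obtain ⟨m, hmk, hmc⟩ := Nat.find_spec hex
  set R := (⊤ : Subgroup G).lowerCentralSeries m with hR
  have hstab : ⁅R, (⊤ : Subgroup G)⁆ = R := by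
    refine Subgroup.eq_of_le_of_card_ge ((Subgroup.lowerCentralSeries_antitone (S := (⊤ : Subgroup _))) (Nat.le_succ m)) ?_
    rw [hmc]
    exact Nat.find_min' hex ⟨m + 1, by omega, rfl⟩
  let mk := QuotientGroup.mk' N
  have hmks : Function.Surjective mk := QuotientGroup.mk'_surjective N
  set R' := R.map mk with hR'
  have hR'e : R' = (⊤ : Subgroup (G ⧸ N)).lowerCentralSeries m := lcs_top_map mk hmks m
  haveI hR'n : Group.IsNilpotent R' := by
    haveI := hk
    exact isNilpotent_mono (hR'e.le.trans (Subgroup.lowerCentralSeries_antitone (S := (⊤ : Subgroup _)) hmk))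
  haveI : R'.Normal := Subgroup.Normal.map inferInstance mk hmks
  have hstab' : ⁅R', (⊤ : Subgroup (G ⧸ N))⁆ = R' := by
    rw [hR', ← Subgroup.map_top_of_surjective mk hmks, ← Subgroup.map_commutator, hstab]
  refine ⟨m, ?_⟩
  suffices hq : ∀ q : ℕ, q.Prime → q ∣ Nat.card R' → q = r by
    have hR'r : IsPGroup r R' := by
      refine IsPGroup.of_card (n := (Nat.card R').factorization r) ?_
      exact Nat.eq_prime_pow_of_unique_prime_dvd Nat.card_pos.ne' (fun {d} hd hdd => hq d hd hdd) ▸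
        by rw [Nat.eq_prime_pow_of_unique_prime_dvd Nat.card_pos.ne' (fun {d} hd hdd => hq d hd hdd),
          Nat.Prime.factorization_pow hr, Finsupp.single_eq_same]
    exact ((hR'r.comap_of_ker_isPGroup mk (by rw [QuotientGroup.ker_mk']; exact hNr)).to_le
      (Subgroup.le_comap_map mk R)).isNilpotent
  intro q hq hqd
  by_contra hqr
  haveI := Fact.mk hq
  -- the Sylow `q`-subgroup of `R'`
  obtain ⟨T⟩ := (inferInstance : Nonempty (Sylow q R'))
  have hTn : (T : Subgroup R').Normal :=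
    ((Group.isNilpotent_of_finite_tfae (G := R')).out 0 3 : Group.IsNilpotent R' ↔ ∀ (p : ℕ) (_ : Fact p.Prime) (P : Sylow p R'), (P : Subgroup R').Normal).mp hR'n q inferInstance T
  haveI hTc : (T : Subgroup R').Characteristic := T.characteristic_of_normal hTn
  set Q' := (T : Subgroup R').map R'.subtype with hQ'
  haveI hQ'n : Q'.Normal := ConjAct.normal_of_characteristic_of_normal
  have hQ'q : IsPGroup q Q' := T.2.map _
  have hQ'R : Q' ≤ R' := Subgroup.map_subtype_le _
  have hQ'ne : Q' ≠ ⊥ := by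
    intro h
    rw [Subgroup.map_eq_bot_iff_of_injective _ R'.subtype_injective] at h
    exact T.ne_bot_of_dvd_card hqd h
  have hidx : ¬ q ∣ Q'.relIndex R' := by
    rw [Subgroup.relIndex, Subgroup.subgroupOf, hQ', Subgroup.comap_map_eq_self_of_injective R'.subtype_injective]
    exact T.not_dvd_index
  have hRi : ∀ a, ∀ x ∈ R, φ a x ∈ R := fun a x hx =>
    (Subgroup.characteristic_iff_map_le.1 (inferInstance : R.Characteristic) (φ a)) ⟨x, hx, rfl⟩
  set M := Q'.comap mk with hM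
  haveI : M.Normal := inferInstance
  have hMi : ∀ a, ∀ x ∈ M, φ a x ∈ M := by
    intro a x hx
    let σ : MulAut (G ⧸ N) := QuotientGroup.congr N N (φ a) (map_eq_of_invariant φ N hNi a)
    have hσR : ∀ y ∈ R', σ y ∈ R' := by
      rintro _ ⟨y, hy, rfl⟩
      exact ⟨φ a y, hRi a y hy, rfl⟩
    obtain ⟨y, hy, hye⟩ := hx
    have hσ' : R'.map σ.toMonoidHom = R' := Subgroup.eq_of_le_of_card_ge
      (by rintro _ ⟨z, hz, rfl⟩; exact hσR z hz)
      (by rw [Subgroup.card_map_of_injective (f := σ.toMonoidHom) σ.injective])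
    let σR : MulAut R' := (σ.subgroupMap R').trans (MulEquiv.subgroupCongr hσ')
    refine ⟨σR y, (Subgroup.characteristic_iff_map_le.1 hTc σR) ⟨y, hy, rfl⟩, ?_⟩
    show σ (y : G ⧸ N) = mk (φ a x)
    rw [show (y : G ⧸ N) = mk x from hye]
    rfl
  obtain ⟨Q0, hQ0i⟩ := exists_invariant_sylow_le φ M hMi hcop hAsol q
  set Q := (Q0 : Subgroup M).map M.subtype with hQdef
  have hQM : Q ≤ M := Subgroup.map_subtype_le _
  have hQq : IsPGroup q Q := Q0.2.map _
  have hQN : Q ⊓ N = ⊥ := (IsPGroup.disjoint_of_ne q r hqr _ _ hQq hNr).eq_bot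
  have hQmap : Q.map mk = Q' := by
    let g : M →* Q' := mk.subgroupComap Q'
    have hg : Function.Surjective g := by
      rintro ⟨y, hy⟩
      obtain ⟨x, rfl⟩ := hmks y
      exact ⟨⟨x, hy⟩, rfl⟩
    have htop : ((Q0.mapSurjective hg : Sylow q Q') : Subgroup Q') = ⊤ :=
      ((Q0.mapSurjective hg).3 (hQ'q.of_surjective (Subgroup.topEquiv (G := Q')).symm.toMonoidHom (Subgroup.topEquiv (G := Q')).symm.surjective) le_top).symm
    refine le_antisymm (Subgroup.map_le_iff_le_comap.2 hQM) fun y hy => ?_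
    have hy2 : (⟨y, hy⟩ : Q') ∈ ((Q0.mapSurjective hg : Sylow q Q') : Subgroup Q') := htop ▸ Subgroup.mem_top _
    obtain ⟨x, hx, hxe⟩ := hy2
    exact ⟨(x : G), ⟨x, hx, rfl⟩, congrArg Subtype.val hxe⟩
  have hQ1 : Q ≠ ⊥ := fun h => hQ'ne (by rw [← hQmap, h, Subgroup.map_bot])
  set H := Subgroup.normalizer (Q : Set G) with hH
  have hHM : H ⊔ M = ⊤ := Sylow.normalizer_sup_eq_top Q0
  have hMQN : M ≤ Q ⊔ N := by
    intro x hx
    obtain ⟨y, hy, hye⟩ := hQmap.ge hx
    have : y⁻¹ * x ∈ N := QuotientGroup.eq.1 hye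
    simpa using mul_mem (Subgroup.mem_sup_left (T := N) hy) (Subgroup.mem_sup_right this)
  have hHN : H ⊔ N = ⊤ := by
    rw [eq_top_iff, ← hHM]
    exact sup_le le_sup_left (hMQN.trans (sup_le (Subgroup.le_normalizer.trans le_sup_left) le_sup_right))
  have hHi : ∀ a, ∀ x ∈ H, φ a x ∈ H := by
    intro a x hx
    rw [hH, Subgroup.mem_normalizer_iff] at hx ⊢
    intro z
    obtain ⟨w, rfl⟩ := (φ a).surjective z
    rw [← map_inv, ← map_mul, ← map_mul]
    have hmem : ∀ w, φ a w ∈ Q ↔ w ∈ Q := fun w => ⟨fun h => by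
      obtain ⟨v, hv, hve⟩ := (map_eq_of_invariant φ Q hQ0i a).ge h
      exact (φ a).injective hve ▸ hv, fun h => hQ0i a w h⟩
    rw [hmem, hmem]
    exact hx w
  have hnormal : ∀ L : Subgroup G, (∀ h ∈ H, ∀ x ∈ L, h * x * h⁻¹ ∈ L) →
      (∀ n ∈ N, ∀ x ∈ L, n * x * n⁻¹ ∈ L) → L.Normal := by
    intro L hH' hN'
    refine Subgroup.normalizer_eq_top_iff.1 ?_
    rw [eq_top_iff, ← hHN]
    exact sup_le (Subgroup.le_normalizer_iff.2 hH') (Subgroup.le_normalizer_iff.2 hN')
  have hCNQ : ∀ x ∈ N, (∀ y ∈ Q, y * x = x * y) → x = 1 := by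
    set L := N ⊓ Subgroup.centralizer (Q : Set G) with hL
    have hLn : L.Normal := by
      refine hnormal L (fun h hh x hx => ?_) (fun w hw x hx => ?_)
      · exact (Subgroup.mem_normalizer_iff.1 (Subgroup.inf_normalizer_le_normalizer_inf
          ⟨by rw [Subgroup.normalizer_eq_top]; exact Subgroup.mem_top _, mem_normalizer_centralizer hh⟩) x).1 hx
      · rwa [hNab w hw x hx.1, mul_inv_cancel_right]
    have hLi : ∀ a, ∀ x ∈ L, φ a x ∈ L := fun a x hx => ⟨hNi a x hx.1, Subgroup.mem_centralizer_iff.2 fun y hy => by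
      obtain ⟨w, hw, rfl⟩ := (map_eq_of_invariant φ Q hQ0i a).ge hy
      show φ a w * φ a x = φ a x * φ a w
      rw [← map_mul, ← map_mul, Subgroup.mem_centralizer_iff.1 hx.2 w hw]⟩
    rcases hmin' L hLn hLi inf_le_left with h | h
    · intro x hx hxy
      exact Subgroup.mem_bot.1 (h.le ⟨hx, Subgroup.mem_centralizer_iff.2 hxy⟩)
    · exfalso
      have hNH : N ≤ H := fun w hw => mem_normalizer_of_forall_commute fun y hy =>
        (Subgroup.mem_centralizer_iff.1 (h.ge hw).2 y hy).symm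
      have htop : H = ⊤ := eq_top_iff.2 (hHN.ge.trans (sup_le le_rfl hNH))
      haveI : Q.Normal := Subgroup.normalizer_eq_top_iff.1 htop
      exact hN1 (eq_bot_iff.2 fun x hx => hQN.le ⟨huniq Q inferInstance hQ0i hQ1 hx, hx⟩)
  have hNH : N ⊓ H = ⊥ := by
    rw [eq_bot_iff]
    intro x hx
    refine Subgroup.mem_bot.2 (hCNQ x hx.1 fun y hy => ?_)
    have h1 : x * y * x⁻¹ * y⁻¹ ∈ Q ⊓ N := ⟨Q.mul_mem ((Subgroup.mem_normalizer_iff.1 hx.2 y).1 hy) (Q.inv_mem hy), by
      rw [show x * y * x⁻¹ * y⁻¹ = x * (y * x⁻¹ * y⁻¹) by group]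
      exact N.mul_mem hx.1 (hNn.conj_mem _ (N.inv_mem hx.1) y)⟩
    rw [hQN, Subgroup.mem_bot, mul_inv_eq_one, mul_inv_eq_iff_eq_mul] at h1
    exact h1.symm
  have hfaith : ∀ x ∈ Q, (∀ v ∈ N, Commute x v) → x = 1 := by
    set L := H ⊓ Subgroup.centralizer (N : Set G) with hL
    have hLn : L.Normal := by
      refine hnormal L (fun h hh x hx => ?_) (fun w hw x hx => ?_)
      · exact (Subgroup.mem_normalizer_iff.1 (Subgroup.inf_normalizer_le_normalizer_inf
          ⟨Subgroup.le_normalizer hh, mem_normalizer_centralizer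
            (by rw [Subgroup.normalizer_eq_top]; exact Subgroup.mem_top _)⟩) x).1 hx
      · rwa [Subgroup.mem_centralizer_iff.1 hx.2 w hw, mul_inv_cancel_right]
    have hLi : ∀ a, ∀ x ∈ L, φ a x ∈ L := fun a x hx => ⟨hHi a x hx.1, Subgroup.mem_centralizer_iff.2 fun y hy => by
      obtain ⟨w, hw, rfl⟩ := (map_eq_of_invariant φ N hNi a).ge hy
      show φ a w * φ a x = φ a x * φ a w
      rw [← map_mul, ← map_mul, Subgroup.mem_centralizer_iff.1 hx.2 w hw]⟩
    intro x hx hxv
    by_contra hx1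
    have hxL : x ∈ L := ⟨Subgroup.le_normalizer hx, Subgroup.mem_centralizer_iff.2 fun v hv => (hxv v hv).eq.symm⟩
    have hle := huniq L hLn hLi (fun h => hx1 (Subgroup.mem_bot.1 (h ▸ hxL)))
    exact hN1 (eq_bot_iff.2 fun w hw => hNH.le ⟨hw, (hle hw).1⟩)
  have hC : ∀ s : ℕ, s.Prime → s ≠ q → ¬ s ∣ (Subgroup.centralizer (Q' : Set (G ⧸ N))).index := by
    intro s hs hsq
    haveI := Fact.mk hs
    obtain ⟨S0, hS0i⟩ := exists_invariant_sylow_le φ H hHi hcop hAsol s
    set P := (S0 : Subgroup H).map H.subtype with hP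
    have hPH : P ≤ H := Subgroup.map_subtype_le _
    have hcore' := hcore G φ hcop hfpf hr hq hs hqr hsq N P Q hNab hNexp hQq (S0.2.map _) hNn hNi hS0i hQ0i
      hPH hfaith
    have hPC : P.map mk ≤ Subgroup.centralizer (Q' : Set (G ⧸ N)) := by
      rintro _ ⟨x, hx, rfl⟩
      rw [Subgroup.mem_centralizer_iff]
      intro y hy
      obtain ⟨w, hw, rfl⟩ := hQmap.ge hy
      rw [← map_mul, ← map_mul, Subgroup.mem_centralizer_iff.1 (hcore' hx) w hw]
    have hsurj : Function.Surjective (mk.comp H.subtype) := by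
      intro y
      obtain ⟨x, rfl⟩ := hmks y
      obtain ⟨h, hh, w, hw, rfl⟩ := Subgroup.mem_sup_of_normal_right.1 (hHN.ge (Subgroup.mem_top x))
      refine ⟨⟨h, hh⟩, QuotientGroup.eq.2 ?_⟩
      simpa using hw
    intro hd
    refine (S0.mapSurjective hsurj).not_dvd_index (hd.trans (Subgroup.index_dvd_of_le ?_))
    rintro _ ⟨x, hx, rfl⟩
    exact hPC ⟨(x : G), ⟨x, hx, rfl⟩, rfl⟩
  refine hQ'ne (eq_bot_of_lcs hq R' Q' hstab' hQ'R hQ'q hidx ⟨_, Nat.eq_prime_pow_of_unique_prime_dvd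
    Subgroup.index_ne_zero_of_finite fun {d} hd hdd => ?_⟩)
  by_contra hne
  exact hC d hd hne hdd

variable {G : Type u} [Group G] [Finite G]

theorem le_normalizer_actK (φ : A →* MulAut G) (L K : Subgroup G) (h : L ≤ Subgroup.normalizer (K : Set G)) :
    actK φ L ≤ Subgroup.normalizer (actK φ K : Set (G ⋊[φ] A)) := by
  rw [Subgroup.le_normalizer_iff]
  rintro _ ⟨x, hx, rfl⟩ _ ⟨y, hy, rfl⟩
  exact ⟨x * y * x⁻¹, (Subgroup.mem_normalizer_iff.1 (h hx) y).1 hy, by simp⟩

/-- A non-abelian operator group of order `p q` in normalised form. -/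
theorem exists_generators {p q : ℕ} (hp : p.Prime) (hq : q.Prime) (hqp : q < p) (hA : Nat.card A = p * q)
    (hna : ¬ IsMulCommutative A) : Group.IsSolvable A ∧
    ∃ x y : A, orderOf x = p ∧ orderOf y = q ∧ (Subgroup.zpowers x).Normal ∧ x * y ≠ y * x := by
  haveI := Fact.mk hp
  haveI := Fact.mk hq
  obtain ⟨x, hx⟩ := exists_prime_orderOf_dvd_card' (G := A) p (hA ▸ dvd_mul_right p q)
  obtain ⟨y, hy⟩ := exists_prime_orderOf_dvd_card' (G := A) q (hA ▸ dvd_mul_left q p)
  have hidx : (Subgroup.zpowers x).index = q := by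
    have h := (Subgroup.zpowers x).card_mul_index
    rw [Nat.card_zpowers, hx, hA] at h
    exact Nat.eq_of_mul_eq_mul_left hp.pos h
  have hmin : (Nat.card A).minFac = q := by
    refine le_antisymm (Nat.minFac_le_of_dvd hq.two_le (hA ▸ dvd_mul_left q p)) ?_
    have h1 : Nat.card A ≠ 1 := by rw [hA]; exact fun h => hp.ne_one (Nat.eq_one_of_mul_eq_one_right h)
    have h2 := Nat.minFac_prime h1
    have h3 := Nat.minFac_dvd (Nat.card A)
    rw [hA] at h2 h3 ⊢
    rcases h2.dvd_mul.1 h3 with h | h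
    · rw [(Nat.prime_dvd_prime_iff_eq h2 hp).1 h]; exact hqp.le
    · rw [(Nat.prime_dvd_prime_iff_eq h2 hq).1 h]
  have hn : (Subgroup.zpowers x).Normal := Subgroup.normal_of_index_eq_minFac_card (hidx.trans hmin.symm)
  haveI := hn
  refine ⟨?_, x, y, hx, hy, hn, fun hc => hna ⟨⟨fun a b => ?_⟩⟩⟩
  · haveI : Group.IsSolvable (Subgroup.zpowers x) := Setup.solvable_zpowers x
    haveI : Group.IsSolvable (A ⧸ Subgroup.zpowers x) := by
      haveI : IsCyclic (A ⧸ Subgroup.zpowers x) := isCyclic_of_prime_card (p := q) (hidx ▸ rfl)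
      letI : CommGroup (A ⧸ Subgroup.zpowers x) := IsCyclic.commGroup
      infer_instance
    exact Group.isSolvable_of_ker_le_range (f := (Subgroup.zpowers x).subtype)
      (g := QuotientGroup.mk' (Subgroup.zpowers x)) (by rw [QuotientGroup.ker_mk', Subgroup.range_subtype])
  · have htop : Subgroup.closure ({x, y} : Set A) = ⊤ := by
      refine Subgroup.eq_top_of_card_eq _ (Nat.dvd_antisymm (Subgroup.card_subgroup_dvd_card _) ?_)
      rw [hA]
      refine ((Nat.coprime_primes hp hq).2 hqp.ne').mul_dvd_of_dvd_of_dvd ?_ ?_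
      · rw [← hx]; exact Subgroup.orderOf_dvd_natCard _ (Subgroup.subset_closure (Set.mem_insert x _))
      · rw [← hy]
        exact Subgroup.orderOf_dvd_natCard _ (Subgroup.subset_closure (Set.mem_insert_of_mem _ rfl))
    have hcomm : IsMulCommutative (Subgroup.closure ({x, y} : Set A)) :=
      Subgroup.isMulCommutative_closure (by
        rintro u (rfl | rfl) v (rfl | rfl)
        exacts [rfl, hc, hc.symm, rfl])
    exact congrArg Subtype.val (hcomm.1.1 ⟨a, htop.symm ▸ Subgroup.mem_top a⟩ ⟨b, htop.symm ▸ Subgroup.mem_top b⟩)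

/-- A fixed-point-free coprime action of a non-abelian group of order `p q` on a solvable group. -/
theorem exists_isNilpotent_lcs {p q : ℕ} (hp : p.Prime) (hq : q.Prime) (hqp : q < p) (hA : Nat.card A = p * q)
    (hna : ¬ IsMulCommutative A) (hG : Group.IsSolvable G) (φ : A →* MulAut G)
    (hcop : (Nat.card A).Coprime (Nat.card G)) (hfpf : ∀ g : G, (∀ a : A, φ a g = g) → g = 1) :
    ∃ k, Group.IsNilpotent ↥((⊤ : Subgroup G).lowerCentralSeries k) := by
  obtain ⟨hsol, x, y, hx, hy, hn, hnc⟩ := exists_generators hp hq hqp hA hna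
  refine exists_isNilpotent_lcs_of_core hsol (fun H _ _ ψ hcop hfix r s t hr hs ht hsr hts V P R hVab hVexp hR hP
    hVn hVi hPi hRi hPR hfaith => ?_) _ G rfl hG φ hcop hfpf
  have O : Ops (actA ψ) (SemidirectProduct.inr x : H ⋊[ψ] A) (SemidirectProduct.inr y) p q :=
    { hp := hp
      hq := hq
      hpq := hqp.ne'
      hx := ⟨x, rfl⟩
      hy := ⟨y, rfl⟩
      ox := by rw [orderOf_injective _ SemidirectProduct.inr_injective, hx]
      oy := by rw [orderOf_injective _ SemidirectProduct.inr_injective, hy]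
      card := by rw [card_actA, hA]
      norm := by
        rintro _ ⟨a, rfl⟩
        refine mem_normalizer_of_forall fun u hu => ?_
        obtain ⟨i, rfl⟩ := Subgroup.mem_zpowers_iff.1 hu
        obtain ⟨j, hj⟩ := Subgroup.mem_zpowers_iff.1 (hn.conj_mem _ (Subgroup.zpow_mem_zpowers x i) a)
        exact Subgroup.mem_zpowers_iff.2 ⟨j, by
          rw [← map_zpow, hj, map_mul, map_mul, map_inv, map_zpow]⟩
      nc := fun h => hnc (SemidirectProduct.inr_injective (φ := ψ) (by rw [map_mul, map_mul]; exact h))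
      solv := by
        haveI := hsol
        exact Group.isSolvable_of_surjective (MonoidHom.rangeRestrict_surjective _) }
  haveI : IsMulCommutative (actK ψ V) := ⟨⟨by
    rintro ⟨_, a, ha, rfl⟩ ⟨_, b, hb, rfl⟩
    exact Subtype.ext (by
      show SemidirectProduct.inl a * SemidirectProduct.inl b = SemidirectProduct.inl b * SemidirectProduct.inl a
      rw [← map_mul, hVab a ha b hb, map_mul])⟩⟩
  have htop : ∀ L : Subgroup H, L ≤ Subgroup.normalizer (V : Set H) := fun L => by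
    rw [Subgroup.normalizer_eq_top]; exact le_top
  have h := O.core (K := actK ψ ⊤) (actA_le_normalizer ψ fun _ _ _ => Subgroup.mem_top _)
    (by rw [card_actA, card_actK, Subgroup.card_top]; exact hcop)
    (by
      rintro _ ⟨g, -, rfl⟩ h
      rw [hfix g ((mem_centralizer_actA_iff ψ g).1 (Subgroup.mem_centralizer_iff.2 fun a ha => (h a ha).eq)),
        map_one])
    hr hs ht hsr hts (actK ψ V) (actK ψ P) (actK ψ R) (Subgroup.map_mono le_top) (Subgroup.map_mono le_top)
    (Subgroup.map_mono le_top)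
    (by rintro _ ⟨v, hv, rfl⟩; rw [← map_pow, hVexp v hv, map_one])
    (hR.map _) (hP.map _) (actA_le_normalizer ψ hVi) (le_normalizer_actK ψ _ _ (htop P))
    (le_normalizer_actK ψ _ _ (htop R)) (actA_le_normalizer ψ hPi) (actA_le_normalizer ψ hRi)
    (le_normalizer_actK ψ _ _ hPR)
    (by
      rintro _ ⟨u, hu, rfl⟩ h
      rw [hfaith u hu fun v hv => SemidirectProduct.inl_injective (φ := ψ) (by
        rw [map_mul, map_mul]; exact (h _ ⟨v, hv, rfl⟩).eq), map_one])
  intro w hw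
  rw [Subgroup.mem_centralizer_iff]
  intro u hu
  have h' := Subgroup.mem_centralizer_iff.1 (h ⟨w, hw, rfl⟩) _ ⟨u, hu, rfl⟩
  rw [← map_mul, ← map_mul] at h'
  exact SemidirectProduct.inl_injective h'

end CfsgLib.FpfPQ
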